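import Cfsg.Agent.Chev.TwoGen.Cfgs
import Cfsg.Agent.Chev.ValidB2
import Cfsg.Agent.Chev.ValidG2
import Cfsg.Agent.Chev.ValidD4
import Cfsg.Agent.Chev.ValidF4
import Cfsg.Agent.Chev.ValidE6
import Cfsg.Agent.Chev.ValidE7
import Cfsg.Agent.Chev.ValidE8

/-! The kernel checks of the derivations. -/

set_option autoImplicit false
set_option maxRecDepth 100000
set_option maxHeartbeats 4000000

namespace CfsgLib.Chev.TwoGen.Cfgs

theorem okB2 : genOK CfsgLib.Chev.DataB2.tbl cfgB2 = true := by decide +kernel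

theorem okG2 : genOK CfsgLib.Chev.DataG2.tbl cfgG2 = true := by decide +kernel

theorem okD4 : genOK CfsgLib.Chev.DataD4.tbl cfgD4 = true := by decide +kernel

theorem okF4 : genOK CfsgLib.Chev.DataF4.tbl cfgF4 = true := by decide +kernel

theorem okE6 : genOK CfsgLib.Chev.DataE6.tbl cfgE6 = true := by decide +kernel

theorem okE7 : genOK CfsgLib.Chev.DataE7.tbl cfgE7 = true := by decide +kernel

theorem okE8 : genOK CfsgLib.Chev.DataE8.tbl cfgE8 = true := by decide +kernel

theorem noSplit_simplyLaced : cfgD4.splits = false ∧ cfgE6.splits = false ∧ cfgE7.splits = false ∧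
    cfgE8.splits = false ∧ cfgF4.splits = false := by decide +kernel

end CfsgLib.Chev.TwoGen.Cfgs
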