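import Cfsg.Agent.Chev.TwoGen.Table
import Cfsg.Agent.Chev.Twisted.OrbitGroup
import Mathlib.RingTheory.IntegralDomain

/-!
# Two elements generate the Chevalley group
-/

set_option autoImplicit false

namespace CfsgLib.Chev.TwoGen

open Cfsg.Lie Matrix CfsgLib.Chev CfsgLib.Chev.CharTwoInvol

universe u

/-- An additive subgroup stable under a multiplier of large order is everything. -/
theorem addSubgroup_eq_top {F : Type u} [Field F] [Finite F] {A : AddSubgroup F} {c χ : F}
    (hc : c ∈ A) (hc0 : c ≠ 0) (hχ0 : χ ≠ 0) (hA : ∀ t ∈ A, χ * t ∈ A)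
    (hord : Nat.card F < 2 * (orderOf χ + 1)) : A = ⊤ := by
  classical
  haveI : Fintype F := Fintype.ofFinite F
  let R : AddSubgroup F :=
    { carrier := {s | ∀ t ∈ A, s * t ∈ A}
      add_mem' := fun {x y} hx hy t ht => by rw [add_mul]; exact A.add_mem (hx t ht) (hy t ht)
      zero_mem' := fun t _ => by rw [zero_mul]; exact A.zero_mem
      neg_mem' := fun {x} hx t ht => by rw [neg_mul]; exact A.neg_mem (hx t ht) }
  have hpow : ∀ k : ℕ, χ ^ k ∈ R := by
    intro k
    induction k with
    | zero => exact fun t ht => by rw [pow_zero, one_mul]; exact ht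
    | succ k ih => exact fun t ht => by rw [pow_succ', mul_assoc]; exact hA _ (ih t ht)
  have hcard : orderOf χ + 1 ≤ Nat.card R := by
    let f : Option (Fin (orderOf χ)) → R
      | none => 0
      | some k => ⟨χ ^ (k : ℕ), hpow k⟩
    have hf : Function.Injective f := by
      rintro (_ | x) (_ | y) e
      · rfl
      · exact absurd (congrArg Subtype.val e).symm (pow_ne_zero _ hχ0)
      · exact absurd (congrArg Subtype.val e) (pow_ne_zero _ hχ0)
      · exact congrArg some (Fin.ext (pow_injOn_Iio_orderOf x.2 y.2 (congrArg Subtype.val e)))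
    have := Nat.card_le_card_of_injective f hf
    simpa using this
  have hR : R = ⊤ := by
    rw [← AddSubgroup.index_eq_one]
    have h1 := R.card_mul_index
    have h2 : 0 < R.index := Nat.pos_of_ne_zero AddSubgroup.index_ne_zero_of_finite
    nlinarith
  refine eq_top_iff.2 fun t _ => ?_
  have : t / c ∈ R := hR ▸ AddSubgroup.mem_top _
  have h := this c hc
  rwa [div_mul_cancel₀ _ hc0] at h

theorem cast_unitZ {F : Type u} [Field F] {e : ℤ} (h : unitZ e = true) : (e : F) ≠ 0 := by
  simp only [unitZ, Bool.or_eq_true, decide_eq_true_eq] at h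
  rcases h with rfl | rfl <;> simp

/-- A generator of the units and its values under small exponents. -/
theorem zpow_small {F : Type u} [Field F] [Finite F] {g : Fˣ} (hg : orderOf g = Nat.card F - 1)
    (h4 : 4 ≤ Nat.card F) {e : ℤ} (he : smallZ e = true) :
    ((g ^ e : Fˣ) : F) ≠ 1 ∧ Nat.card F < 2 * (orderOf ((g ^ e : Fˣ) : F) + 1) := by
  have hcases : e.natAbs = 1 ∨ e.natAbs = 2 := by
    simp only [smallZ, unitZ, Bool.or_eq_true, decide_eq_true_eq] at he
    omega
  have hord : orderOf (g ^ e) = orderOf (g ^ e.natAbs) := by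
    rcases Int.natAbs_eq e with h | h
    · conv_lhs => rw [h, zpow_natCast]
    · conv_lhs => rw [h, _root_.zpow_neg, orderOf_inv, zpow_natCast]
  have hge : Nat.card F - 1 ≤ 2 * orderOf (g ^ e) := by
    have h1 : g ^ (e.natAbs * orderOf (g ^ e)) = 1 := by
      rw [hord, pow_mul, pow_orderOf_eq_one]
    have h2 := orderOf_dvd_of_pow_eq_one h1
    have hpos : 0 < orderOf (g ^ e) := (isOfFinOrder_of_finite _).orderOf_pos
    rw [hg] at h2
    have := Nat.le_of_dvd (by rcases hcases with k | k <;> rw [k] <;> omega) h2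
    rcases hcases with k | k <;> rw [k] at this <;> omega
  rw [orderOf_units]
  refine ⟨fun h => ?_, by omega⟩
  have h' : g ^ e = 1 := Units.ext h
  rw [h', orderOf_one] at hge
  omega

variable {D : ChevalleyDatum} {T : Tbl} (hV : T.Valid D) {F : Type u} [Field F]

/-- The root element in the second generator. -/
noncomputable def xb (c : GenCfg) : GL D.Idx F :=
  match c.beta with
  | none => 1
  | some b => (Tbl.Valid.toSys.{u} hV).xU b 1

/-- All root elements of the list lie in the subgroup. -/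
def Known (M : Subgroup (GL D.Idx F)) (K : List ℕ) : Prop :=
  ∀ r ∈ K, r < T.n ∧ ∀ t : F, (Tbl.Valid.toSys.{u} hV).xU r t ∈ M

variable {hV} {M : Subgroup (GL D.Idx F)} {K : List ℕ}

theorem known_get (hK : Known hV M K) {x : ℕ} (h : memB K x = true) :
    x < T.n ∧ ∀ t : F, (Tbl.Valid.toSys.{u} hV).xU x t ∈ M := by
  obtain ⟨y, hy, e⟩ := List.any_eq_true.1 h
  rw [Nat.eq_of_beq_eq_true e]
  exact hK y hy

/-- One factor of a product in a subgroup with all other factors in it. -/
theorem factor_mem {ι : Type*} (f : ι → GL D.Idx F) (L : List ι) (idx : ℕ) (h : idx < L.length)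
    (hp : (L.map f).prod ∈ M) (ho : ∀ k (hk : k < L.length), k ≠ idx → f L[k] ∈ M) : f L[idx] ∈ M := by
  induction L generalizing idx with
  | nil => exact absurd h (Nat.not_lt_zero _)
  | cons a L ih =>
    rw [List.map_cons, List.prod_cons] at hp
    cases idx with
    | zero =>
      refine (M.mul_mem_cancel_right (Subgroup.list_prod_mem _ ?_)).1 hp
      intro y hy
      obtain ⟨z, hz, rfl⟩ := List.mem_map.1 hy
      obtain ⟨k, hk, rfl⟩ := List.mem_iff_getElem.1 hz
      exact ho (k + 1) (Nat.succ_lt_succ hk) (Nat.succ_ne_zero k)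
    | succ i =>
      exact ih i (Nat.lt_of_succ_lt_succ h) ((M.mul_mem_cancel_left (ho 0 (Nat.zero_lt_succ _) (by omega))).1 hp)
        fun k hk hne => ho (k + 1) (Nat.succ_lt_succ hk) (by omega)

/-- Two adjacent factors of a product in a subgroup with all other factors in it. -/
theorem pair_mem {ι : Type*} (f : ι → GL D.Idx F) (L : List ι) (idx : ℕ) (h : idx + 1 < L.length)
    (hp : (L.map f).prod ∈ M) (ho : ∀ k (hk : k < L.length), k ≠ idx → k ≠ idx + 1 → f L[k] ∈ M) :
    f L[idx] * f L[idx + 1] ∈ M := by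
  induction L generalizing idx with
  | nil => exact absurd h (Nat.not_lt_zero _)
  | cons a L ih =>
    rw [List.map_cons, List.prod_cons] at hp
    cases idx with
    | zero =>
      match L, h, hp, ho with
      | b :: L', _, hp, ho =>
        rw [List.map_cons, List.prod_cons, ← mul_assoc] at hp
        refine (M.mul_mem_cancel_right (Subgroup.list_prod_mem _ ?_)).1 hp
        intro y hy
        obtain ⟨z, hz, rfl⟩ := List.mem_map.1 hy
        obtain ⟨k, hk, rfl⟩ := List.mem_iff_getElem.1 hz
        exact ho (k + 2) (by simp; omega) (by omega) (by omega)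
    | succ i =>
      exact ih i (Nat.lt_of_succ_lt_succ h) ((M.mul_mem_cancel_left (ho 0 (Nat.zero_lt_succ _) (by omega) (by omega))).1 hp)
        fun k hk h1 h2 => ho (k + 1) (Nat.succ_lt_succ hk) (by omega) (by omega)

theorem commute_commB {r v : ℕ} (hr : r < T.n) (hv : v < T.n) (h : commB T r v = true) (t u : F) :
    Commute ((Tbl.Valid.toSys.{u} hV).xU r t) ((Tbl.Valid.toSys.{u} hV).xU v u) := by
  simp only [commB, Bool.and_eq_true, Bool.not_eq_true', List.isEmpty_iff] at h
  obtain ⟨⟨h1, h2⟩, h3⟩ := h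
  have e := (Tbl.Valid.toSys.{u} hV).comm_wU (lt_nroots hV hr) (lt_nroots hV hv) (s := v)
    (fun e => by rw [e, show Nat.beq r r = true from Nat.beq_refl r] at h1; exact absurd h1 (by decide))
    (fun e => by
      rw [neg_eq_negAt hV hr] at e
      rw [e, show Nat.beq (T.negAt r) (T.negAt r) = true from Nat.beq_refl _] at h2
      exact absurd h2 (by decide)) t u
  rw [ChevalleyDatum.commWord, hV.commTermsd hr hv, h3] at e
  simpa [Sys.wU, commute_iff_eq] using e.symm

/-- The conjugate of a root element by a root element with parameter one. -/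
theorem conj_yWord {b v : ℕ} (hb : b < T.n) (hv : v < T.n) (h1 : Nat.beq v b = false)
    (h2 : Nat.beq v (T.negAt b) = false) (u : F) :
    (Tbl.Valid.toSys.{u} hV).xU b 1 * (Tbl.Valid.toSys.{u} hV).xU v u * ((Tbl.Valid.toSys.{u} hV).xU b 1)⁻¹ =
      ((yWord T b v).map fun e => (Tbl.Valid.toSys.{u} hV).xU e.1 ((e.2.1 : F) * u ^ e.2.2)).prod := by
  have e := (Tbl.Valid.toSys.{u} hV).comm_wU (lt_nroots hV hb) (lt_nroots hV hv) (s := v)
    (fun k => by rw [k, show Nat.beq b b = true from Nat.beq_refl b] at h1; exact absurd h1 (by decide))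
    (fun k => by
      rw [neg_eq_negAt hV hb] at k
      rw [k, show Nat.beq (T.negAt b) (T.negAt b) = true from Nat.beq_refl _] at h2
      exact absurd h2 (by decide)) (-1 : F) u
  rw [ChevalleyDatum.commWord, hV.commTermsd hb hv] at e
  have e' : (Tbl.Valid.toSys.{u} hV).xU b 1 * (Tbl.Valid.toSys.{u} hV).xU v u * (Tbl.Valid.toSys.{u} hV).xU b (-1) =
      (Tbl.Valid.toSys.{u} hV).xU v u * (Tbl.Valid.toSys.{u} hV).wU
        ((T.terms b v).map fun c => (c.1, (c.2.1 : F) * (- -1) ^ c.2.2.1 * u ^ c.2.2.2)) := by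
    rw [mul_assoc, e, ← mul_assoc, ← mul_assoc, Sys.xU_add, add_neg_cancel, Sys.xU_zero, one_mul]
  rw [Sys.xU_inv, e', yWord, List.map_cons, List.prod_cons, Sys.wU, List.map_map, List.map_map]
  congr 1
  · simp
  · congr 1
    refine List.map_congr_left fun c _ => ?_
    simp

/-- The action of the Weyl word on a root element. -/
theorem nw_conj {L : List ℕ} (hL : ∀ q ∈ L, q < T.l) {d : ℕ} (hd : d < T.n) :
    ∃ c : Fˣ, ∀ t : F, (Tbl.Valid.toSys.{u} hV).nw F L * (Tbl.Valid.toSys.{u} hV).xU d t *
      ((Tbl.Valid.toSys.{u} hV).nw F L)⁻¹ = (Tbl.Valid.toSys.{u} hV).xU (wAct T L d) ((c : F) * t) := by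
  obtain ⟨c, hc⟩ := (Tbl.Valid.toSys.{u} hV).acts_nw (F := F) (fun q hq => lt_rank hV (hL q hq))
    ⟨d, lt_nroots hV hd⟩
  refine ⟨c, fun t => ?_⟩
  rw [hc t, Twisted.pw_eq L (fun q hq => lt_rank hV (hL q hq))]
  rfl

theorem hU_mem {η : ℕ} (hη : η < T.n) (h1 : ∀ t : F, (Tbl.Valid.toSys.{u} hV).xU η t ∈ M)
    (h2 : ∀ t : F, (Tbl.Valid.toSys.{u} hV).xU (T.negAt η) t ∈ M) (g : F) :
    (Tbl.Valid.toSys.{u} hV).hU η g ∈ M := by
  rw [Sys.hU_eq, Sys.nU_eq, Sys.nU_eq, neg_eq_negAt hV hη]
  exact mul_mem (mul_mem (mul_mem (h1 _) (h2 _)) (h1 _)) (mul_mem (mul_mem (h1 _) (h2 _)) (h1 _))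

/-- One derivation is sound. -/
theorem genStep_sound {c : GenCfg} (hL : ∀ q ∈ c.word, q < T.l)
    (hβ : ∀ b, c.beta = some b → b < T.n)
    (hb : xb hV c * (Tbl.Valid.toSys.{u} hV).nw F c.word ∈ M) {op : GenOp}
    (hsp : ∀ d i η, op = .split d i η → ∃ g : Fˣ, g ≠ 1) (hK : Known hV M K) {v : ℕ}
    (h : genStep T c K op = some v) : v < T.n ∧ ∀ t : F, (Tbl.Valid.toSys.{u} hV).xU v t ∈ M := by
  set n := (Tbl.Valid.toSys.{u} hV).nw F c.word with hn
  set x := xb (F := F) hV c with hx
  have key : ∀ d, (∀ t : F, (Tbl.Valid.toSys.{u} hV).xU d t ∈ M) → d < T.n → ∀ u : F,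
      x * (Tbl.Valid.toSys.{u} hV).xU (wAct T c.word d) u * x⁻¹ ∈ M := by
    intro d hd hdn u
    obtain ⟨k, hk⟩ := nw_conj (F := F) (hV := hV) hL hdn
    have := mul_mem (mul_mem hb (hd ((k : F)⁻¹ * u))) (inv_mem hb)
    rw [show x * n * (Tbl.Valid.toSys.{u} hV).xU d ((k : F)⁻¹ * u) * (x * n)⁻¹ =
      x * (n * (Tbl.Valid.toSys.{u} hV).xU d ((k : F)⁻¹ * u) * n⁻¹) * x⁻¹ by group, hk,
      mul_inv_cancel_left₀ k.ne_zero] at this
    exact this
  have free : ∀ w, w < T.n → freeB T c K w = true → ∀ u : F,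
      (x * (Tbl.Valid.toSys.{u} hV).xU w u * x⁻¹ ∈ M ↔ (Tbl.Valid.toSys.{u} hV).xU w u ∈ M) := by
    intro w hw hf u
    rw [hx, xb]
    cases hbe : c.beta with
    | none => simp
    | some b =>
      rw [freeB, hbe] at hf
      simp only [Bool.or_eq_true] at hf
      rcases hf with hf | hf
      · have hm := (known_get hK hf).2 1
        refine ⟨fun h' => ?_, fun h' => mul_mem (mul_mem hm h') (inv_mem hm)⟩
        exact (M.mul_mem_cancel_left hm).1 ((M.mul_mem_cancel_right (inv_mem hm)).1 h')
      · simp only []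
        rw [(commute_commB (hV := hV) (hβ b hbe) hw hf 1 u).eq, mul_inv_cancel_right]
  cases op with
  | conj d =>
    simp only [genStep] at h
    cases hc : (memB K d && freeB T c K (wAct T c.word d)) <;> rw [hc] at h
    · simp at h
    simp only [cond_true, Option.some.injEq] at h
    subst h
    rw [Bool.and_eq_true] at hc
    obtain ⟨hdn, hd⟩ := known_get hK hc.1
    exact ⟨wAct_lt hV hL hdn, fun t => (free _ (wAct_lt hV hL hdn) hc.2 t).1 (key d hd hdn t)⟩
  | inv w d =>
    simp only [genStep] at h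
    cases hc : (memB K d && Nat.blt w T.n && Nat.beq (wAct T c.word w) d && freeB T c K d) <;>
      rw [hc] at h
    · simp at h
    simp only [cond_true, Option.some.injEq] at h
    subst h
    simp only [Bool.and_eq_true] at hc
    obtain ⟨hdn, hd⟩ := known_get hK hc.1.1.1
    have hwn : w < T.n := Nat.le_of_ble_eq_true hc.1.1.2
    obtain ⟨k, hk⟩ := nw_conj (F := F) (hV := hV) hL hwn
    refine ⟨hwn, fun t => ?_⟩
    have h1 := (free d hdn hc.2 ((k : F) * t)).2 (hd _)
    rw [Nat.eq_of_beq_eq_true hc.1.2] at hk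
    have := mul_mem (mul_mem (inv_mem hb) h1) hb
    rw [← hk t] at this
    simpa [hn, mul_assoc] using this
  | sum g d idx =>
    simp only [genStep] at h
    set L := T.terms g d with hLdef
    cases hc : (memB K g && memB K d && !Nat.beq d g && !Nat.beq d (T.negAt g) && Nat.blt idx L.length &&
        Nat.blt (L.getD idx (0, 0, 0, 0)).1 T.n && unitZ (L.getD idx (0, 0, 0, 0)).2.1 &&
        (Nat.beq (L.getD idx (0, 0, 0, 0)).2.2.1 1 || Nat.beq (L.getD idx (0, 0, 0, 0)).2.2.2 1) &&
        (List.range L.length).all fun k => Nat.beq k idx || memB K (L.getD k (0, 0, 0, 0)).1) <;>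
      rw [hc] at h
    · simp at h
    simp only [cond_true, Option.some.injEq] at h
    subst h
    simp only [Bool.and_eq_true, Bool.not_eq_true', List.all_eq_true, List.mem_range, Bool.or_eq_true] at hc
    obtain ⟨⟨⟨⟨⟨⟨⟨⟨hg, hd⟩, hne⟩, hne'⟩, hidx⟩, hlt⟩, hM1⟩, hexp⟩, hrest⟩ := hc
    obtain ⟨hgn, hgM⟩ := known_get hK hg
    obtain ⟨hdn, hdM⟩ := known_get hK hd
    have hidx' : idx < L.length := Nat.le_of_ble_eq_true hidx
    rw [List.getD_eq_getElem _ _ hidx'] at hlt hM1 hexp ⊢
    refine ⟨Nat.le_of_ble_eq_true hlt, ?_⟩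
    have hfac : ∀ t u : F, (Tbl.Valid.toSys.{u} hV).xU L[idx].1
        ((L[idx].2.1 : F) * (-t) ^ L[idx].2.2.1 * u ^ L[idx].2.2.2) ∈ M := by
      intro t u
      have e := (Tbl.Valid.toSys.{u} hV).comm_wU (lt_nroots hV hgn) (lt_nroots hV hdn) (s := d)
        (fun k => by rw [k, show Nat.beq g g = true from Nat.beq_refl g] at hne; exact absurd hne (by decide))
        (fun k => by
          rw [neg_eq_negAt hV hgn] at k
          rw [k, show Nat.beq (T.negAt g) (T.negAt g) = true from Nat.beq_refl _] at hne'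
          exact absurd hne' (by decide)) t u
      rw [ChevalleyDatum.commWord, hV.commTermsd hgn hdn, ← hLdef] at e
      have hW := mul_mem (inv_mem (mul_mem (hgM t) (hdM u))) (mul_mem (hdM u) (hgM t))
      rw [e, inv_mul_cancel_left, Sys.wU, List.map_map] at hW
      exact factor_mem _ L idx hidx' hW fun k hk hkne => by
        rcases hrest k hk with r | r
        · exact absurd (Nat.eq_of_beq_eq_true r) hkne
        · rw [List.getD_eq_getElem _ _ hk] at r
          exact (known_get hK r).2 _
    intro t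
    have hM0 : (L[idx].2.1 : F) ≠ 0 := cast_unitZ hM1
    rcases hexp with hi | hj
    · have := hfac (-(t / (L[idx].2.1 : F))) 1
      rwa [Nat.eq_of_beq_eq_true hi, pow_one, one_pow, mul_one, _root_.neg_neg,
        mul_div_cancel₀ _ hM0] at this
    · have := hfac (-1) (t / (L[idx].2.1 : F))
      rwa [Nat.eq_of_beq_eq_true hj, pow_one, _root_.neg_neg, one_pow, mul_one,
        mul_div_cancel₀ _ hM0] at this
  | brk d idx =>
    cases hbe : c.beta with
    | none => simp [genStep, hbe] at h
    | some b =>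
      simp only [genStep, hbe] at h
      set L := yWord T b (wAct T c.word d) with hLdef
      cases hc : (memB K d && !Nat.beq (wAct T c.word d) b && !Nat.beq (wAct T c.word d) (T.negAt b) &&
          Nat.blt idx L.length && Nat.blt (L.getD idx (0, 0, 0)).1 T.n &&
          unitZ (L.getD idx (0, 0, 0)).2.1 && Nat.beq (L.getD idx (0, 0, 0)).2.2 1 &&
          (List.range L.length).all fun k => Nat.beq k idx || memB K (L.getD k (0, 0, 0)).1) <;>
        rw [hc] at h
      · simp at h
      simp only [cond_true, Option.some.injEq] at h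
      subst h
      simp only [Bool.and_eq_true, Bool.not_eq_true', List.all_eq_true, List.mem_range, Bool.or_eq_true] at hc
      obtain ⟨⟨⟨⟨⟨⟨⟨hd, hne⟩, hne'⟩, hidx⟩, hlt⟩, hM1⟩, hexp⟩, hrest⟩ := hc
      obtain ⟨hdn, hdM⟩ := known_get hK hd
      have hidx' : idx < L.length := Nat.le_of_ble_eq_true hidx
      rw [List.getD_eq_getElem _ _ hidx'] at hlt hM1 hexp ⊢
      refine ⟨Nat.le_of_ble_eq_true hlt, fun t => ?_⟩
      set u₀ := t / (L[idx].2.1 : F)
      have hW := key d hdM hdn u₀
      rw [hx, xb, hbe] at hW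
      simp only [] at hW
      rw [conj_yWord (hV := hV) (hβ b hbe) (wAct_lt hV hL hdn) hne hne', ← hLdef] at hW
      have := factor_mem _ L idx hidx' hW fun k hk hkne => by
        rcases hrest k hk with r | r
        · exact absurd (Nat.eq_of_beq_eq_true r) hkne
        · rw [List.getD_eq_getElem _ _ hk] at r
          exact (known_get hK r).2 _
      rwa [Nat.eq_of_beq_eq_true hexp, pow_one, mul_div_cancel₀ _ (cast_unitZ hM1)] at this
  | split d idx η =>
    cases hbe : c.beta with
    | none => simp [genStep, hbe] at h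
    | some b =>
      simp only [genStep, hbe] at h
      set L := yWord T b (wAct T c.word d) with hLdef
      cases hc : (memB K d && !Nat.beq (wAct T c.word d) b && !Nat.beq (wAct T c.word d) (T.negAt b) &&
          Nat.blt (idx + 1) L.length && Nat.blt (L.getD idx (0, 0, 0)).1 T.n &&
          Nat.blt (L.getD (idx + 1) (0, 0, 0)).1 T.n &&
          unitZ (L.getD (idx + 1) (0, 0, 0)).2.1 && Nat.beq (L.getD (idx + 1) (0, 0, 0)).2.2 1 &&
          Nat.blt η T.n && memB K η && memB K (T.negAt η) &&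
          decide (prT T (L.getD idx (0, 0, 0)).1 η = 0) && unitZ (prT T (L.getD (idx + 1) (0, 0, 0)).1 η) &&
          (List.range L.length).all fun k =>
            Nat.beq k idx || Nat.beq k (idx + 1) || memB K (L.getD k (0, 0, 0)).1) <;>
        rw [hc] at h
      · simp at h
      simp only [cond_true, Option.some.injEq] at h
      subst h
      simp only [Bool.and_eq_true, Bool.not_eq_true', List.all_eq_true, List.mem_range, Bool.or_eq_true,
        decide_eq_true_eq] at hc
      obtain ⟨⟨⟨⟨⟨⟨⟨⟨⟨⟨⟨⟨⟨hd, hne⟩, hne'⟩, hidx⟩, hlt₁⟩, hlt⟩, hM1⟩, hexp⟩, hηn⟩, hη1⟩, hη2⟩, hp0⟩, hp1⟩, hrest⟩ := hc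
      obtain ⟨hdn, hdM⟩ := known_get hK hd
      have hidx' : idx + 1 < L.length := Nat.le_of_ble_eq_true hidx
      rw [List.getD_eq_getElem _ _ (Nat.lt_of_succ_lt hidx')] at hlt₁ hp0
      rw [List.getD_eq_getElem _ _ hidx'] at hlt hM1 hexp hp1 ⊢
      have hηn' : η < T.n := Nat.le_of_ble_eq_true hηn
      have he₁ : L[idx].1 < T.n := Nat.le_of_ble_eq_true hlt₁
      have he : L[idx + 1].1 < T.n := Nat.le_of_ble_eq_true hlt
      refine ⟨he, fun t => ?_⟩
      obtain ⟨g, hg⟩ := hsp d idx η rfl
      set z := hz D η g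
      have hzM : (Tbl.Valid.toSys.{u} hV).dg z ∈ M := by
        rw [← Sys.hU_eq_dg _ (lt_nroots hV hηn')]
        exact hU_mem hηn' (known_get hK hη1).2 (known_get hK hη2).2 _
      set χ := ((Tbl.Valid.toSys.{u} hV).chi z L[idx + 1].1 : F) with hχ
      have hχ1 : χ - 1 ≠ 0 := by
        rw [sub_ne_zero, hχ, Sys.chi_hz _ _ _ (lt_nroots hV he), ← prT_eq hV he hηn']
        intro k
        apply hg
        simp only [unitZ, Bool.or_eq_true, decide_eq_true_eq] at hp1
        rcases hp1 with p | p <;> rw [p] at k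
        · simpa using k
        · have : g⁻¹ = 1 := Units.ext (by simpa using k)
          exact inv_eq_one.1 this
      set u₀ := t / (χ - 1) / (L[idx + 1].2.1 : F)
      have hW := key d hdM hdn u₀
      rw [hx, xb, hbe] at hW
      simp only [] at hW
      rw [conj_yWord (hV := hV) (hβ b hbe) (wAct_lt hV hL hdn) hne hne', ← hLdef] at hW
      have hP := pair_mem _ L idx hidx' hW fun k hk k1 k2 => by
        rcases hrest k hk with (r | r) | r
        · exact absurd (Nat.eq_of_beq_eq_true r) k1
        · exact absurd (Nat.eq_of_beq_eq_true r) k2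
        · rw [List.getD_eq_getElem _ _ hk] at r
          exact (known_get hK r).2 _
      have h2 := mul_mem (inv_mem hP) (mul_mem (mul_mem hzM hP) (inv_mem hzM))
      rw [show ∀ p a b : GL D.Idx F, (a * b)⁻¹ * (p * (a * b) * p⁻¹) =
          b⁻¹ * (a⁻¹ * (p * a * p⁻¹)) * (p * b * p⁻¹) from fun p a b => by group,
        Sys.dg_conj_xU _ _ (lt_nroots hV he₁), Sys.dg_conj_xU _ _ (lt_nroots hV he),
        Sys.chi_hz _ _ _ (lt_nroots hV he₁), ← prT_eq hV he₁ hηn', hp0, zpow_zero, Units.val_one, one_mul,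
        inv_mul_cancel, mul_one, Sys.xU_inv, Sys.xU_add, Nat.eq_of_beq_eq_true hexp, pow_one,
        mul_div_cancel₀ _ (cast_unitZ hM1)] at h2
      rwa [show -(t / (χ - 1)) + χ * (t / (χ - 1)) = t by field_simp; ring] at h2

/-- All derivations are sound. -/
theorem genRun_sound {c : GenCfg} (hL : ∀ q ∈ c.word, q < T.l)
    (hβ : ∀ b, c.beta = some b → b < T.n)
    (hb : xb hV c * (Tbl.Valid.toSys.{u} hV).nw F c.word ∈ M) :
    ∀ (ops : List GenOp) (K : List ℕ) (K' : List ℕ),
      (∀ d i η, GenOp.split d i η ∈ ops → ∃ g : Fˣ, g ≠ 1) → Known hV M K →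
      genRun T c ops K = some K' → Known hV M K' := by
  intro ops
  induction ops with
  | nil =>
    intro K K' _ hK h
    rw [genRun, Option.some.injEq] at h
    exact h ▸ hK
  | cons op ops ih =>
    intro K K' hsp hK h
    rw [genRun] at h
    cases hs : genStep T c K op with
    | none => simp [hs] at h
    | some v =>
      simp only [hs] at h
      refine ih (v :: K) K' (fun d i η hm => hsp d i η (List.mem_cons_of_mem _ hm)) ?_ h
      intro r hr
      rcases List.mem_cons.1 hr with rfl | hr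
      · exact genStep_sound hL hβ hb (fun d i η e => hsp d i η (e ▸ List.mem_cons_self ..)) hK hs
      · exact hK r hr

variable (hV)

include hV in
/-- Two elements generate the group. -/
theorem exists_two_generators [Finite F] {c : GenCfg} (hc : genOK T c = true)
    (hbig : c.splits = true → 3 ≤ Nat.card F) :
    ∃ a b : ↥(D.group F), Subgroup.closure ({a, b} : Set ↥(D.group F)) = ⊤ := by
  classical
  haveI : Fintype F := Fintype.ofFinite F
  simp only [genOK, Bool.and_eq_true, List.all_eq_true] at hc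
  obtain ⟨⟨⟨⟨⟨⟨hL', hα'⟩, htor'⟩, hβ'⟩, he1⟩, he3⟩, hrun⟩ := hc
  have hL : ∀ q ∈ c.word, q < T.l := fun q hq => Nat.le_of_ble_eq_true (hL' q hq)
  have hα : c.alpha < T.n := Nat.le_of_ble_eq_true hα'
  have htor : c.tor < T.n := Nat.le_of_ble_eq_true htor'
  have hβ : ∀ b, c.beta = some b → b < T.n ∧ commB T b c.alpha = true ∧ prT T b c.tor = 0 := fun b hb => by
    rw [hb] at hβ'
    simp only [Bool.and_eq_true, decide_eq_true_eq] at hβ'
    exact ⟨Nat.le_of_ble_eq_true hβ'.1.1, hβ'.1.2, hβ'.2⟩
  set n := (Tbl.Valid.toSys.{u} hV).nw F c.word with hn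
  set x := xb (F := F) hV c with hx
  have hnG : n ∈ D.group F := by
    rw [hn]
    induction c.word with
    | nil => exact one_mem _
    | cons q L ih =>
      rw [Sys.nw_cons, Sys.nU_eq]
      exact mul_mem (mul_mem (mul_mem (Sys.xU_mem_group _ _ _) (Sys.xU_mem_group _ _ _))
        (Sys.xU_mem_group _ _ _)) ih
  have hxG : x ∈ D.group F := by
    rw [hx, xb]
    split
    · exact one_mem _
    · exact Sys.xU_mem_group _ _ _
  obtain ⟨a, b, haG, hbG, hgen⟩ : ∃ a b : GL D.Idx F, a ∈ D.group F ∧ b ∈ D.group F ∧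
      x * n ∈ Subgroup.closure ({a, b} : Set (GL D.Idx F)) ∧
      ∀ t : F, (Tbl.Valid.toSys.{u} hV).xU c.alpha t ∈ Subgroup.closure ({a, b} : Set (GL D.Idx F)) := by
    by_cases h4 : Nat.card F ≤ 3
    · refine ⟨(Tbl.Valid.toSys.{u} hV).xU c.alpha 1, x * n, Sys.xU_mem_group _ _ _, mul_mem hxG hnG,
        Subgroup.subset_closure (by simp), fun t => ?_⟩
      set M := Subgroup.closure ({(Tbl.Valid.toSys.{u} hV).xU c.alpha 1, x * n} : Set (GL D.Idx F))
      let A : AddSubgroup F :=
        { carrier := {s | (Tbl.Valid.toSys.{u} hV).xU c.alpha s ∈ M}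
          add_mem' := fun {p q} hp hq => by
            show _ ∈ M
            rw [← Sys.xU_add]; exact mul_mem hp hq
          zero_mem' := by show _ ∈ M; rw [Sys.xU_zero]; exact one_mem _
          neg_mem' := fun {p} hp => by show _ ∈ M; rw [← Sys.xU_inv]; exact inv_mem hp }
      have h1 : (1 : F) ∈ A := Subgroup.subset_closure (by simp)
      have hp : (Nat.card F).Prime := by
        have := Finite.one_lt_card (α := F)
        rcases (show Nat.card F = 2 ∨ Nat.card F = 3 by omega) with h | h <;> rw [h] <;> norm_num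
      haveI : Fact (Nat.card F).Prime := ⟨hp⟩
      rcases A.eq_bot_or_eq_top_of_prime_card with h | h
      · rw [h, AddSubgroup.mem_bot] at h1; exact absurd h1 one_ne_zero
      · exact (h ▸ AddSubgroup.mem_top t : t ∈ A)
    · have hq : 4 ≤ Nat.card F := by omega
      obtain ⟨g, hg⟩ := IsCyclic.exists_generator (α := Fˣ)
      have hgo : orderOf g = Nat.card F - 1 := by
        rw [orderOf_eq_card_of_forall_mem_zpowers hg, Nat.card_units]
      set z := hz D c.tor g with hzdef
      set a := (Tbl.Valid.toSys.{u} hV).dg z with ha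
      set X := (Tbl.Valid.toSys.{u} hV).xU c.alpha (1 : F) with hX
      refine ⟨a, X * x * n, ?_, mul_mem (mul_mem (Sys.xU_mem_group _ _ _) hxG) hnG, ?_⟩
      · exact (Tbl.Valid.toSys.{u} hV).diag_le_group ((Tbl.Valid.toSys.{u} hV).dg_mem_diag (lt_nroots hV htor) _)
      set M := Subgroup.closure ({a, X * x * n} : Set (GL D.Idx F))
      have haM : a ∈ M := Subgroup.subset_closure (by simp)
      have hbM : X * x * n ∈ M := Subgroup.subset_closure (by simp)
      -- the conjugate torus element
      set r' := wAct T c.word c.tor with hr'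
      have hr'n : r' < T.n := wAct_lt hV hL htor
      set z' := hz D r' g
      set a' := (Tbl.Valid.toSys.{u} hV).dg z' with ha'
      have hna : n * a * n⁻¹ = a' := by
        rw [ha, hzdef, hn, (Tbl.Valid.toSys.{u} hV).nw_conj_hz (fun q hq => lt_rank hV (hL q hq))
          ⟨c.tor, lt_nroots hV htor⟩, Twisted.pw_eq c.word (fun q hq => lt_rank hV (hL q hq))]
        rfl
      set χ := ((Tbl.Valid.toSys.{u} hV).chi z c.alpha : F) with hχdef
      set χ' := ((Tbl.Valid.toSys.{u} hV).chi z' c.alpha : F) with hχ'def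
      have e1 : χ = ((g ^ prT T c.alpha c.tor : Fˣ) : F) := by
        rw [hχdef, hzdef, Sys.chi_hz _ _ _ (lt_nroots hV hα), prT_eq hV hα htor]
      have e3 : χ' = ((g ^ prT T c.alpha r' : Fˣ) : F) := by
        rw [hχ'def, Sys.chi_hz _ _ _ (lt_nroots hV hα), prT_eq hV hα hr'n]
      obtain ⟨hχ1, hχo⟩ := zpow_small hgo hq he1
      obtain ⟨hχ'1, -⟩ := zpow_small hgo hq he3
      rw [← e1] at hχ1 hχo
      rw [← e3] at hχ'1
      have hXx : ∀ s : F, Commute ((Tbl.Valid.toSys.{u} hV).xU c.alpha s) x := fun s => by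
        rw [hx, xb]
        cases hbe : c.beta with
        | none => exact Commute.one_right _
        | some b => exact (commute_commB (hV := hV) (hβ b hbe).1 hα (hβ b hbe).2.1 1 s).symm
      have hax : Commute a x := by
        rw [hx, xb]
        cases hbe : c.beta with
        | none => exact Commute.one_right _
        | some b =>
          show a * _ = _ * a
          rw [ha, Sys.dg_xU _ _ (lt_nroots hV (hβ b hbe).1), hzdef, Sys.chi_hz _ _ _ (lt_nroots hV (hβ b hbe).1),
            ← prT_eq hV (hβ b hbe).1 htor, (hβ b hbe).2.2, zpow_zero, Units.val_one, one_mul]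
      have haa : Commute a a' := by
        show _ = _
        rw [ha, ha', ← Sys.dg_mul, ← Sys.dg_mul, mul_comm]
      -- the commutator
      set s := (1 : F) - χ' with hs
      have hy : X * x * n * a * (X * x * n)⁻¹ =
          (Tbl.Valid.toSys.{u} hV).xU c.alpha s * (x * a' * x⁻¹) := by
        rw [show X * x * n * a * (X * x * n)⁻¹ = X * (x * (n * a * n⁻¹) * x⁻¹) * X⁻¹ by group, hna]
        have e : x * a' * x⁻¹ * X⁻¹ = (Tbl.Valid.toSys.{u} hV).xU c.alpha (-χ') * (x * a' * x⁻¹) := by
          rw [hX, Sys.xU_inv, mul_assoc, ((hXx (-1)).symm.inv_left).eq, ← mul_assoc, mul_assoc x a',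
            ha', Sys.dg_xU _ _ (lt_nroots hV hα), ← hχ'def, ← mul_assoc, ← (hXx _).eq]
          rw [show χ' * (-1) = -χ' by ring]
          group
        rw [mul_assoc, e, ← mul_assoc, hX, Sys.xU_add, hs, sub_eq_add_neg]
      have hcm : Commute a (x * a' * x⁻¹) := (hax.mul_right haa).mul_right hax.inv_right
      have hc0 : (Tbl.Valid.toSys.{u} hV).xU c.alpha (χ * s - s) ∈ M := by
        have h := mul_mem (mul_mem (mul_mem haM (mul_mem (mul_mem hbM haM) (inv_mem hbM))) (inv_mem haM))
          (inv_mem (mul_mem (mul_mem hbM haM) (inv_mem hbM)))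
        rw [hy, show ∀ p q w : GL D.Idx F, p * (q * w) * p⁻¹ * (q * w)⁻¹ =
          (p * q * p⁻¹) * (p * w * p⁻¹ * w⁻¹) * q⁻¹ from fun p q w => by group, hcm.eq, mul_inv_cancel_right,
          mul_inv_cancel, mul_one, ha, Sys.dg_conj_xU _ _ (lt_nroots hV hα), ← hχdef, Sys.xU_inv, Sys.xU_add,
          ← sub_eq_add_neg] at h
        exact h
      let A : AddSubgroup F :=
        { carrier := {s | (Tbl.Valid.toSys.{u} hV).xU c.alpha s ∈ M}
          add_mem' := fun {p q} hp hq => by
            show _ ∈ M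
            rw [← Sys.xU_add]; exact mul_mem hp hq
          zero_mem' := by show _ ∈ M; rw [Sys.xU_zero]; exact one_mem _
          neg_mem' := fun {p} hp => by show _ ∈ M; rw [← Sys.xU_inv]; exact inv_mem hp }
      have hA : A = ⊤ := addSubgroup_eq_top (A := A) hc0
        (by rw [← sub_one_mul]; exact mul_ne_zero (sub_ne_zero.2 hχ1) (sub_ne_zero.2 hχ'1.symm))
        (Units.ne_zero _) (fun t ht => by
          show _ ∈ M
          have := mul_mem (mul_mem haM ht) (inv_mem haM)
          rwa [ha, Sys.dg_conj_xU _ _ (lt_nroots hV hα)] at this) hχo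
      have hall : ∀ t : F, (Tbl.Valid.toSys.{u} hV).xU c.alpha t ∈ M := fun t => (hA ▸ AddSubgroup.mem_top t : t ∈ A)
      refine ⟨?_, hall⟩
      have := mul_mem (inv_mem (hall 1)) hbM
      rwa [← hX, show X⁻¹ * (X * x * n) = x * n by group] at this
  obtain ⟨hxn, hαall⟩ := hgen
  set M := Subgroup.closure ({a, b} : Set (GL D.Idx F))
  cases hK : genRun T c c.ops [c.alpha] with
  | none => simp [hK] at hrun
  | some K' =>
    simp only [hK, List.all_eq_true, List.mem_range] at hrun
    have hsp : ∀ d i η, GenOp.split d i η ∈ c.ops → ∃ g : Fˣ, g ≠ 1 := fun d i η hm => by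
      have hs : c.splits = true := List.any_eq_true.2 ⟨_, hm, rfl⟩
      haveI : Nontrivial Fˣ := by
        rw [← Finite.one_lt_card_iff_nontrivial, Nat.card_units]
        have := hbig hs
        omega
      exact exists_ne 1
    have hK0 : Known hV M [c.alpha] := fun r hr => by
      rw [List.mem_singleton] at hr
      exact hr ▸ ⟨hα, hαall⟩
    have hK' := genRun_sound hL (fun b hb => (hβ b hb).1) hxn c.ops _ K' hsp hK0 hK
    have hle : D.group F ≤ M := by
      rw [ChevalleyDatum.group, Subgroup.closure_le]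
      rintro g ⟨r, t, hg⟩
      rw [show g = (Tbl.Valid.toSys.{u} hV).xU r t from Units.ext (hg.trans (by simp [ChevalleyDatum.x, r.2]))]
      exact (known_get hK' (hrun r (hV.linked.nroots ▸ r.2))).2 t
    refine ⟨⟨a, haG⟩, ⟨b, hbG⟩, ?_⟩
    apply Subgroup.map_injective (D.group F).subtype_injective
    rw [MonoidHom.map_closure, ← MonoidHom.range_eq_map, Subgroup.range_subtype, Set.image_pair]
    refine le_antisymm ?_ hle
    rw [Subgroup.closure_le]
    rintro y (rfl | rfl) <;> assumption

end CfsgLib.Chev.TwoGen
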