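import Cfsg.Agent.Chev.Ree4.Aut
import Cfsg.Agent.Chev.Ree4.Results
import Cfsg.Agent.Chev.TwoGen.Sound

/-!
# Two elements generate the large Ree group
-/

set_option autoImplicit false
set_option maxRecDepth 100000

namespace CfsgLib.Chev.Ree4

open Cfsg.Lie CfsgLib.Chev Matrix

universe u

theorem vec_two_gen : (List.range 4).map (SF.{u}.vec 32) = [0, 2, 2, 1] ∧
    (List.range 4).map (SF.{u}.vec 22) = [0, 0, -1, 0] ∧
    ((wdata.{u}.wJ 1 ⟨32, by decide⟩ : Fin chevF4.nroots) : ℕ) = 24 ∧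
    ((wdata.{u}.wJ 1 ⟨22, by decide⟩ : Fin chevF4.nroots) : ℕ) = 25 := by decide +kernel

/-- The fourth power of the Coxeter element followed by the second reflection fixes the roots of the
second orbit. -/
theorem perm_two_gen : ∀ r : Fin chevF4.nroots, (r : ℕ) ∈ ([27, 25, 28, 30] : List ℕ) →
    (((wdata.{u}.wJ 0 * wdata.{u}.wJ 1) * ((wdata.{u}.wJ 0 * wdata.{u}.wJ 1) *
      ((wdata.{u}.wJ 0 * wdata.{u}.wJ 1) * (wdata.{u}.wJ 0 * wdata.{u}.wJ 1))) *
        wdata.{u}.wJ 1) r : Fin chevF4.nroots) = r := by decide +kernel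

variable {K : Type u} [Field K] [Finite K] [CharP K 2] (m : ℕ)

local notation "θ" => (2 ^ m : ℕ)
local notation "G¹" => twistedF4 K (2 ^ m : ℕ)

/-- The second monomial element, in the group. -/
noncomputable def n1G : ↥G¹ := ⟨nN K 1, nN_mem m 1⟩

variable (hK : Nat.card K = 2 ^ (2 * m + 1))

include hK in
theorem torus_form_one {a : ↥G¹} {α β : Kˣ} (ha : (a : GL chevF4.Idx K) ∈ H1 K m)
    (hc : HasCoord m a α β) :
    HasCoord m (n1G m * a * (n1G m)⁻¹) (α * β ^ (2 * θ + 2)) β⁻¹ := by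
  obtain ⟨z, hz⟩ := SF.exists_dg (Subgroup.mem_inf.1 ha).1
  have haH : SF.dg z ∈ H1 K m := hz ▸ ha
  have hc0 := coord_of_dg m hK haH hz
  have eα : z 3 = α := by
    have h := (hc0.1 1).symm.trans (hc.1 1)
    exact Units.ext (by simpa using rG_inj m h)
  have eβ : z 2 = β := by
    have h := (hc0.2 1 0).symm.trans (hc.2 1 0)
    exact Units.ext (by simpa using (uG_inj m h).1)
  have hnH := (gdata K m hK).H1_conj 1 _ ha
  obtain ⟨z', hz'⟩ := SF.exists_dg (Subgroup.mem_inf.1 hnH).1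
  have hzH' : SF.dg z' ∈ H1 K m := hz' ▸ hnH
  have hc' := coord_of_dg m hK hzH' (a := n1G m * a * (n1G m)⁻¹) hz'
  suffices h : z' 3 = α * β ^ (2 * θ + 2) ∧ z' 2 = β⁻¹ by rwa [h.1, h.2] at hc'
  have e : nN K 1 * SF.dg z * (nN K 1)⁻¹ = SF.dg z' := by rw [← hz]; exact hz'
  have h1 : z 1 = β ^ θ := by
    rw [← eβ, (coord_eq m hK haH).2, ← pow_mul, mul_comm, pow_mul, units_pow_theta m hK]
  obtain ⟨v32, v22, w32, w22⟩ := vec_two_gen.{u}
  obtain ⟨-, -, c25, c24⟩ := chi_values z'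
  constructor
  · have h := chi_conj (nN_acts (K := K) 1) e ⟨32, by decide⟩
    rw [w32, c24] at h
    rw [h]
    show SF.chi z 32 = _
    rw [chi_of_vec v32, eα, eβ, h1]
    simp only [_root_.zpow_one, _root_.zpow_zero, one_mul, zpow_two]
    rw [pow_add, two_mul, pow_add, pow_two]
    ac_rfl
  · have h := chi_conj (nN_acts (K := K) 1) e ⟨22, by decide⟩
    rw [w22, c25] at h
    rw [h]
    show SF.chi z 22 = _
    rw [chi_of_vec v22, eβ]
    simp

include hK in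
theorem two_gen_ree (hm : 1 ≤ m) :
    ∃ a b : ↥G¹, Subgroup.closure ({a, b} : Set ↥G¹) = ⊤ := by
  classical
  haveI := Fintype.ofFinite K
  have hθ2 : 2 ≤ θ := le_trans (by norm_num) (Nat.pow_le_pow_right two_pos hm)
  have hN : Nat.card K = 2 * (θ * θ) := by rw [hK]; ring
  have hNθ : 2 * θ + 4 ≤ 2 * (θ * θ) := by nlinarith
  obtain ⟨c, hcgen⟩ := IsCyclic.exists_generator (α := Kˣ)
  have hco : orderOf c = 2 * (θ * θ) - 1 := by
    rw [orderOf_eq_card_of_forall_mem_zpowers hcgen, Nat.card_units, hN]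
  obtain ⟨h, hH, hh⟩ := exists_torus m hK (1 : Kˣ) c
  -- the two monomial elements
  set n : ↥G¹ := n0G m * n1G m with hndef
  have ha1 := torus_form_one m hK hH hh
  set a1 : ↥G¹ := n1G m * h * (n1G m)⁻¹ with ha1def
  have ha1H : (a1 : GL chevF4.Idx K) ∈ H1 K m := (gdata K m hK).H1_conj 1 _ hH
  set a' : ↥G¹ := n * h * n⁻¹ with ha'def
  have ha'e : a' = n0G m * a1 * (n0G m)⁻¹ := by rw [ha'def, ha1def, hndef]; group
  have ha' : HasCoord m a' (c ^ (2 * θ + 2))⁻¹ (c ^ (2 * θ + 1)) := by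
    obtain ⟨α, β, hαβ, hconj⟩ := torus_form m hK ha1H
    have eα : α = c ^ (2 * θ + 2) := by
      have e := (hαβ.1 1).symm.trans (ha1.1 1)
      exact Units.ext (by simpa using rG_inj m e)
    have eβ : β = c⁻¹ := by
      have e := (hαβ.2 1 0).symm.trans (ha1.2 1 0)
      exact Units.ext (by simpa using (uG_inj m e).1)
    rw [eα, eβ, show c⁻¹ * c ^ (2 * θ + 2) = c ^ (2 * θ + 1) by
      rw [pow_succ' c (2 * θ + 1), inv_mul_cancel_left], ← ha'e] at hconj
    exact hconj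
  have ha'H : (a' : GL chevF4.Idx K) ∈ H1 K m := ha'e ▸ (gdata K m hK).H1_conj 0 _ ha1H
  -- commutation of torus elements
  have hha' : h * a' = a' * h := by
    obtain ⟨z, hz⟩ := SF.exists_dg (Subgroup.mem_inf.1 hH).1
    obtain ⟨z', hz'⟩ := SF.exists_dg (Subgroup.mem_inf.1 ha'H).1
    refine Subtype.ext ?_
    show (h : GL chevF4.Idx K) * (a' : GL chevF4.Idx K) = (a' : GL chevF4.Idx K) * (h : GL chevF4.Idx K)
    rw [hz, hz', ← Sys.dg_mul, ← Sys.dg_mul, mul_comm]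
  -- the generators
  set M : Subgroup ↥G¹ := Subgroup.closure {h * rG m 1, uG m 1 0 * n} with hM
  refine ⟨h * rG m 1, uG m 1 0 * n, ?_⟩
  rw [← hM]
  have haM : h * rG m 1 ∈ M := Subgroup.subset_closure (by simp)
  have hbM : uG m 1 0 * n ∈ M := Subgroup.subset_closure (by simp)
  have hcomm : Commute h (rG m 1) := by
    have e := hh.1 1
    rw [Units.val_one, one_mul] at e
    exact mul_inv_eq_iff_eq_mul.1 e
  have hR2 : rG m (1 : K) * rG m 1 = 1 := by
    rw [rG_add, CharTwo.add_self_eq_zero]; exact Subtype.ext (R_zero m)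
  have hhodd : h ^ (2 * (θ * θ)) = h := by
    obtain ⟨z, hz⟩ := SF.exists_dg (Subgroup.mem_inf.1 hH).1
    have e2 : h ^ (2 * (θ * θ) - 1) = 1 := by
      refine Subtype.ext ?_
      rw [SubmonoidClass.coe_pow, hz]
      show SF.dgHom z ^ _ = 1
      rw [← map_pow, show z ^ (2 * (θ * θ) - 1) = 1 from funext fun i => by
        rw [Pi.pow_apply, Pi.one_apply, ← hN, ← Nat.card_units, pow_card_eq_one'], map_one]
    conv_lhs => rw [show 2 * (θ * θ) = (2 * (θ * θ) - 1) + 1 by omega, pow_succ, e2, one_mul]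
  have hhM : h ∈ M := by
    have h2 : (h * rG m 1) ^ 2 = h ^ 2 := by
      rw [hcomm.mul_pow, pow_two (rG m (1 : K)), hR2, mul_one]
    have := pow_mem (h2 ▸ pow_mem haM 2 : h ^ 2 ∈ M) (θ * θ)
    rwa [← pow_mul, hhodd] at this
  have hR1M : rG m (1 : K) ∈ M := by simpa using mul_mem (inv_mem hhM) haM
  -- the second root group
  set s : K := 1 + ((c ^ (2 * θ + 1) : Kˣ) : K) with hs
  obtain ⟨w, hw⟩ : ∃ w, uG m 1 0 * n * h * (uG m 1 0 * n)⁻¹ = uG m s w * a' := by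
    have hinv : (uG m (1 : K) 0)⁻¹ = uG m 1 1 := by
      refine inv_eq_of_mul_eq_one_right ?_
      rw [uG_mul m hK, CharTwo.add_self_eq_zero, one_pow, mul_one, zero_add, CharTwo.add_self_eq_zero]
      exact Subtype.ext (U_zero m)
    refine ⟨?w, ?_⟩
    rotate_left
    rw [show uG m 1 0 * n * h * (uG m 1 0 * n)⁻¹ =
      uG m 1 0 * (a' * (uG m 1 0)⁻¹ * a'⁻¹) * a' by rw [ha'def]; group,
      hinv, ha'.2, mul_one, uG_mul m hK]
  have hUinv : ∀ t u : K, (uG m t u)⁻¹ = uG m t (u + t * t ^ θ) := fun t u => by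
    refine inv_eq_of_mul_eq_one_right ?_
    rw [uG_mul m hK, CharTwo.add_self_eq_zero, ← add_assoc, CharTwo.add_self_eq_zero, zero_add,
      CharTwo.add_self_eq_zero]
    exact Subtype.ext (U_zero m)
  obtain ⟨w', hw'⟩ : ∃ w', uG m ((c : K) * s + s) w' ∈ M := by
    have hy : uG m s w * a' ∈ M := hw ▸ mul_mem (mul_mem hbM hhM) (inv_mem hbM)
    have h' := mul_mem (mul_mem (mul_mem hhM hy) (inv_mem hhM)) (inv_mem hy)
    rw [show h * (uG m s w * a') * h⁻¹ * (uG m s w * a')⁻¹ =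
      (h * uG m s w * h⁻¹) * (h * a' * h⁻¹ * a'⁻¹) * (uG m s w)⁻¹ by group, hha',
      mul_inv_cancel_right, mul_inv_cancel, mul_one, hh.2, hUinv, uG_mul m hK] at h'
    exact ⟨_, h'⟩
  let A : AddSubgroup K :=
    { carrier := {t | ∃ u, uG m t u ∈ M}
      add_mem' := by
        rintro p q ⟨u, hu⟩ ⟨v, hv⟩
        have := mul_mem hu hv
        rw [uG_mul m hK] at this
        exact ⟨_, this⟩
      zero_mem' := ⟨0, by rw [show uG m (0 : K) 0 = 1 from Subtype.ext (U_zero m)]; exact one_mem _⟩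
      neg_mem' := fun {p} hp => by
        show ∃ u, uG m (-p) u ∈ M
        rw [CharTwo.neg_eq]; exact hp }
  have hc1 : (c : K) ≠ 1 := fun e => by
    rw [Units.ext (e.trans Units.val_one.symm), orderOf_one] at hco; omega
  have hs0 : s ≠ 0 := by
    rw [hs]
    intro e
    have e1 : c ^ (2 * θ + 1) = 1 := Units.ext (CharTwo.add_eq_zero.1 e).symm
    have := Nat.le_of_dvd (by omega) (orderOf_dvd_of_pow_eq_one e1)
    omega
  have hA : A = ⊤ := TwoGen.addSubgroup_eq_top (A := A) (χ := (c : K)) ⟨w', hw'⟩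
    (by
      rw [show (c : K) * s + s = ((c : K) + 1) * s by ring]
      exact mul_ne_zero (fun e => hc1 (CharTwo.add_eq_zero.1 e)) hs0)
    (Units.ne_zero c)
    (fun t ht => by
      obtain ⟨u, hu⟩ := ht
      have := mul_mem (mul_mem hhM hu) (inv_mem hhM)
      rw [hh.2] at this
      exact ⟨_, this⟩)
    (by rw [orderOf_units, hco, hN]; omega)
  have hX1 : ∀ t u : K, uG m t u ∈ M := by
    intro t u
    have hT : ∀ t : K, ∃ u, uG m t u ∈ M := fun t => (hA ▸ AddSubgroup.mem_top t : t ∈ A)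
    obtain ⟨u', hu'⟩ := hT t
    obtain ⟨t₂, ht₂⟩ := exists_norm_root m hK (u' + u)
    obtain ⟨u₂, hu₂⟩ := hT t₂
    have := mul_mem hu' (mul_mem hu₂ hu₂)
    rw [uG_sq m hK, ht₂, uG_mul_low m hK, ← add_assoc, CharTwo.add_self_eq_zero, zero_add] at this
    exact this
  have hnM : n ∈ M := by simpa using mul_mem (inv_mem (hX1 1 0)) hbM
  -- the negative of the second root group
  have hn1M : n1G m ∈ M := by
    set p : ↥G¹ := n * (n * (n * n)) with hp
    have hpM : p ∈ M := mul_mem hnM (mul_mem hnM (mul_mem hnM hnM))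
    set X : ↥G¹ := n1G m * uG m 0 1 * (n1G m)⁻¹ with hX
    set g : GL chevF4.Idx K := ((p * X * p⁻¹ : ↥G¹) : GL chevF4.Idx K) with hg
    have hgF : g ∈ (twist K m).fixed := twisted_le_fixed m hK (p * X * p⁻¹).2
    have hgU : g ∈ SF.uminus K (wdata.{u}.wJ 1) := by
      set q : GL chevF4.Idx K := ((p * n1G m : ↥G¹) : GL chevF4.Idx K) with hq
      have hqa : SF.Acts q ((wdata.{u}.wJ 0 * wdata.{u}.wJ 1) * ((wdata.{u}.wJ 0 * wdata.{u}.wJ 1) *
          ((wdata.{u}.wJ 0 * wdata.{u}.wJ 1) * (wdata.{u}.wJ 0 * wdata.{u}.wJ 1))) * wdata.{u}.wJ 1) := by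
        have hn' : SF.Acts ((n : ↥G¹) : GL chevF4.Idx K) (wdata.{u}.wJ 0 * wdata.{u}.wJ 1) :=
          SF.acts_mul (nN_acts 0) (nN_acts 1)
        exact SF.acts_mul (SF.acts_mul hn' (SF.acts_mul hn' (SF.acts_mul hn' hn'))) (nN_acts 1)
      have e : g = q * U m 0 1 * q⁻¹ := by
        rw [hg, hX, show p * (n1G m * uG m 0 1 * (n1G m)⁻¹) * p⁻¹ =
          (p * n1G m) * uG m 0 1 * (p * n1G m)⁻¹ by group]
        rfl
      have hroot : ∀ r : ℕ, ∀ hr : r ∈ ([27, 25, 28, 30] : List ℕ), ∀ t : K,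
          q * SF.xU r t * q⁻¹ ∈ SF.uminus K (wdata.{u}.wJ 1) := by
        intro r hr t
        have hr48 : r < chevF4.nroots := by fin_cases hr <;> decide
        obtain ⟨k, hk⟩ := hqa ⟨r, hr48⟩
        rw [hk t, perm_two_gen ⟨r, hr48⟩ hr]
        exact xU_mem_uminus hr48 (flips_roots.2 r hr hr48) _
      rw [e, U, W, Y, show ∀ x y z v : GL chevF4.Idx K, q * (x * y * (z * v)) * q⁻¹ =
        (q * x * q⁻¹) * (q * y * q⁻¹) * ((q * z * q⁻¹) * (q * v * q⁻¹)) from fun x y z v => by group]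
      exact mul_mem (mul_mem (hroot 27 (by simp) _) (hroot 25 (by simp) _))
        (mul_mem (hroot 28 (by simp) _) (hroot 30 (by simp) _))
    obtain ⟨t, u, htu⟩ := (mem_X1 m hK).1 (Subgroup.mem_inf.2 ⟨hgU, hgF⟩)
    have hpX : p * X * p⁻¹ = uG m t u := Subtype.ext htu
    have hXM : X ∈ M := by
      have := mul_mem (mul_mem (inv_mem hpM) (hpX ▸ hX1 t u : p * X * p⁻¹ ∈ M)) hpM
      rwa [show p⁻¹ * (p * X * p⁻¹) * p = X by group] at this
    have e : n1G m = uG m (1 : K) 0 * X * uG m 1 1 := Subtype.ext (n1_eq m)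
    exact e ▸ mul_mem (mul_mem (hX1 1 0) hXM) (hX1 1 1)
  have hn0M : n0G m ∈ M := by simpa [hndef] using mul_mem hnM (inv_mem hn1M)
  -- the first root group
  let B : AddSubgroup K :=
    { carrier := {t | rG m t ∈ M}
      add_mem' := fun {p q} hp hq => by show _ ∈ M; rw [← rG_add]; exact mul_mem hp hq
      zero_mem' := by show _ ∈ M; rw [show rG m (0 : K) = 1 from Subtype.ext (R_zero m)]; exact one_mem _
      neg_mem' := fun {p} hp => by show _ ∈ M; rw [CharTwo.neg_eq]; exact hp }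
  have ha'M : a' ∈ M := mul_mem (mul_mem hnM hhM) (inv_mem hnM)
  have hcop : (orderOf c).Coprime (2 * θ + 2) := by
    rw [hco, show 2 * θ + 2 = 2 * (θ + 1) by ring]
    have h1 : 1 ≤ θ * θ := by nlinarith
    refine Nat.Coprime.mul_right ?_ ?_
    · rw [Nat.coprime_two_right, Nat.odd_iff]; omega
    · have e : 2 * (θ * θ) - 1 = (2 * θ - 2) * (θ + 1) + 1 := by
        zify [show 1 ≤ 2 * (θ * θ) by omega, show 2 ≤ 2 * θ by omega]; ring
      rw [e, Nat.coprime_comm]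
      simp
  have hB : B = ⊤ := TwoGen.addSubgroup_eq_top (A := B) (c := 1) (χ := (((c ^ (2 * θ + 2))⁻¹ : Kˣ) : K))
    hR1M one_ne_zero (Units.ne_zero _)
    (fun t ht => by
      show _ ∈ M
      rw [← ha'.1]
      exact mul_mem (mul_mem ha'M ht) (inv_mem ha'M))
    (by rw [orderOf_units, orderOf_inv, Nat.Coprime.orderOf_pow hcop, hco, hN]; omega)
  have hX0 : ∀ t : K, rG m t ∈ M := fun t => (hB ▸ AddSubgroup.mem_top t : t ∈ B)
  have hle : (twistedF4 K θ) ≤ M.map (twistedF4 K θ).subtype := by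
    refine le_trans (gdata K m hK).gen ((Subgroup.closure_le _).2 ?_)
    rintro g ⟨j, x, hx, hg⟩
    obtain rfl | rfl : j = 0 ∨ j = 1 := by fin_cases j <;> simp
    · obtain ⟨t, rfl⟩ := (mem_X0 m hK).1 hx
      rcases hg with rfl | rfl
      · exact ⟨_, hX0 t, rfl⟩
      · exact ⟨_, mul_mem (mul_mem hn0M (hX0 t)) (inv_mem hn0M), rfl⟩
    · obtain ⟨t, u, rfl⟩ := (mem_X1 m hK).1 hx
      rcases hg with rfl | rfl
      · exact ⟨_, hX1 t u, rfl⟩
      · exact ⟨_, mul_mem (mul_mem hn1M (hX1 t u)) (inv_mem hn1M), rfl⟩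
  rw [eq_top_iff]
  intro x _
  obtain ⟨y, hy, e⟩ := hle x.2
  exact (Subtype.ext e : y = x) ▸ hy

end CfsgLib.Chev.Ree4
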