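import Cfsg.Agent.Chev.CharTwoInvol.Basic

/-!
# Generation by two elements: derivations of root subgroups on the tables
-/

set_option autoImplicit false

namespace CfsgLib.Chev.TwoGen

open Cfsg.Lie CfsgLib.Chev CfsgLib.Chev.CharTwoInvol

/-- A derivation of one root subgroup from those already present. -/
inductive GenOp where
  | conj (d : ℕ)
  | inv (v d : ℕ)
  | sum (g d idx : ℕ)
  | brk (d idx : ℕ)
  | split (d idx η : ℕ)

/-- The two generators and the derivations. -/
structure GenCfg where
  /-- the Weyl word of the second generator -/
  word : List ℕ
  /-- the root reached first -/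
  alpha : ℕ
  /-- the root of the second generator -/
  beta : Option ℕ
  /-- the root of the torus element -/
  tor : ℕ
  /-- the derivations -/
  ops : List GenOp

/-- The list of the roots already present contains the root. -/
def memB (K : List ℕ) (x : ℕ) : Bool := K.any (Nat.beq x)

/-- The root elements have no commutator terms. -/
noncomputable def commB (T : Tbl) (r v : ℕ) : Bool :=
  !Nat.beq v r && !Nat.beq v (T.negAt r) && (T.terms r v).isEmpty

/-- Conjugation by the root part of the second generator can be undone. -/
noncomputable def freeB (T : Tbl) (c : GenCfg) (K : List ℕ) (v : ℕ) : Bool :=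
  match c.beta with
  | none => true
  | some b => memB K b || commB T b v

/-- The roots, coefficients and exponents of a conjugated root element. -/
noncomputable def yWord (T : Tbl) (b v : ℕ) : List (ℕ × ℤ × ℕ) :=
  (v, 1, 1) :: (T.terms b v).map fun e => (e.1, e.2.1, e.2.2.2)

/-- An integer of absolute value one. -/
def unitZ (e : ℤ) : Bool := decide (e = 1) || decide (e = -1)

/-- An exponent whose values on a generator differ from one. -/
def smallZ (e : ℤ) : Bool := unitZ e || decide (e = 2) || decide (e = -2)

/-- One derivation. -/
noncomputable def genStep (T : Tbl) (c : GenCfg) (K : List ℕ) : GenOp → Option ℕ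
  | .conj d => cond (memB K d && freeB T c K (wAct T c.word d)) (some (wAct T c.word d)) none
  | .inv v d => cond (memB K d && Nat.blt v T.n && Nat.beq (wAct T c.word v) d && freeB T c K d)
      (some v) none
  | .sum g d idx =>
      let L := T.terms g d
      let e := L.getD idx (0, 0, 0, 0)
      cond (memB K g && memB K d && !Nat.beq d g && !Nat.beq d (T.negAt g) && Nat.blt idx L.length &&
        Nat.blt e.1 T.n && unitZ e.2.1 && (Nat.beq e.2.2.1 1 || Nat.beq e.2.2.2 1) &&
        (List.range L.length).all fun k => Nat.beq k idx || memB K (L.getD k (0, 0, 0, 0)).1)
        (some e.1) none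
  | .brk d idx =>
      match c.beta with
      | none => none
      | some b =>
        let v := wAct T c.word d
        let L := yWord T b v
        let e := L.getD idx (0, 0, 0)
        cond (memB K d && !Nat.beq v b && !Nat.beq v (T.negAt b) && Nat.blt idx L.length &&
          Nat.blt e.1 T.n && unitZ e.2.1 && Nat.beq e.2.2 1 &&
          (List.range L.length).all fun k => Nat.beq k idx || memB K (L.getD k (0, 0, 0)).1)
          (some e.1) none
  | .split d idx η =>
      match c.beta with
      | none => none
      | some b =>
        let v := wAct T c.word d
        let L := yWord T b v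
        let e₁ := L.getD idx (0, 0, 0)
        let e := L.getD (idx + 1) (0, 0, 0)
        cond (memB K d && !Nat.beq v b && !Nat.beq v (T.negAt b) && Nat.blt (idx + 1) L.length &&
          Nat.blt e₁.1 T.n && Nat.blt e.1 T.n && unitZ e.2.1 && Nat.beq e.2.2 1 &&
          Nat.blt η T.n && memB K η && memB K (T.negAt η) && decide (prT T e₁.1 η = 0) &&
          unitZ (prT T e.1 η) &&
          (List.range L.length).all fun k =>
            Nat.beq k idx || Nat.beq k (idx + 1) || memB K (L.getD k (0, 0, 0)).1)
          (some e.1) none

/-- All derivations in turn. -/
noncomputable def genRun (T : Tbl) (c : GenCfg) : List GenOp → List ℕ → Option (List ℕ)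
  | [], K => some K
  | op :: ops, K =>
    match genStep T c K op with
    | none => none
    | some v => genRun T c ops (v :: K)

/-- Whether a derivation needs a field with more than two elements. -/
def GenCfg.splits (c : GenCfg) : Bool :=
  c.ops.any fun | .split _ _ _ => true | _ => false

/-- The check of the generators and derivations. -/
noncomputable def genOK (T : Tbl) (c : GenCfg) : Bool :=
  c.word.all (fun q => Nat.blt q T.l) && Nat.blt c.alpha T.n && Nat.blt c.tor T.n &&
  (match c.beta with
    | none => true
    | some b => Nat.blt b T.n && commB T b c.alpha && decide (prT T b c.tor = 0)) &&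
  smallZ (prT T c.alpha c.tor) && smallZ (prT T c.alpha (wAct T c.word c.tor)) &&
  match genRun T c c.ops [c.alpha] with
  | none => false
  | some K => (List.range T.n).all (memB K)

end CfsgLib.Chev.TwoGen
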