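import Cfsg.Agent.Chev.TwoGen.TwSound
import Cfsg.Agent.Chev.Twisted.E6
import Cfsg.Agent.Chev.Twisted.D4
import Cfsg.Agent.Chev.ValidD4

/-!
# Two generators for ²E₆ and ³D₄
-/

set_option autoImplicit false
set_option maxRecDepth 100000

namespace CfsgLib.Chev.TwoGen

open Cfsg.Lie CfsgLib.Chev CfsgLib.Chev.Twisted CfsgLib.Chev.CharTwoInvol

universe u

/-- The derivations for ²E₆. -/
def opsE6 : List TwGenOp :=
  [.rot 42, .conj 42, .conj 37, .conj 56, .conj 36, .conj 10, .conj 22, .conj 31, .conj 28,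
    .conj 19, .conj 9, .conj 13, .conj 30, .conj 34, .conj 29, .long 9 35, .conj 8, .conj 46,
    .conj 39, .conj 51, .conj 65, .conj 44, .conj 63, .conj 25]

/-- The derivations for ³D₄. -/
def opsD4 : List TwGenOp :=
  [.rot 18, .conj 18, .rot 13, .conj 13, .conj 4, .conj 12, .conj 7, .conj 6, .conj 8, .conj 3,
    .conj 2, .long 2 8, .conj 0, .conj 1, .conj 14, .conj 23, .conj 22]

theorem okTwE6 : twGenOK DataE6.tbl E6.graph.rho E6.graph.eps 2 [1, 3, 2, 4, 0, 5] 42 opsE6 = true := by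
  decide +kernel

theorem okTwD4 : twGenOK DataD4.tbl D4.graph.rho D4.graph.eps 3 [1, 0, 2, 3] 18 opsD4 = true := by
  decide +kernel

variable {K : Type u} [Field K] [Fintype K] {q k : ℕ}

theorem frob_dist (hq : 2 ≤ q) (hk : 2 ≤ k) (hK : Fintype.card K = q ^ k) {phi : K →+* K}
    (hphi : ∀ t, phi t = t ^ q) :
    ∀ i < k, ∀ j < k, i ≠ j → ∃ x : K, phi^[i] x ≠ phi^[j] x := by
  intro i hi j hj hne
  obtain ⟨g, hg⟩ := IsCyclic.exists_generator (α := Kˣ)
  have hgo : orderOf g = q ^ k - 1 := by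
    rw [orderOf_eq_card_of_forall_mem_zpowers hg, Nat.card_units, Nat.card_eq_fintype_card, hK]
  have hlt : ∀ a < k, q ^ a < q ^ k - 1 := fun a ha => by
    have h1 : q ^ a * q ≤ q ^ k := by rw [← pow_succ]; exact Nat.pow_le_pow_right (by omega) ha
    have h2 : q ^ a * 2 ≤ q ^ a * q := Nat.mul_le_mul_left _ hq
    rcases Nat.eq_zero_or_pos a with rfl | ha0
    · have : q ^ 2 ≤ q ^ k := Nat.pow_le_pow_right (by omega) hk
      have : 2 * 2 ≤ q ^ 2 := by rw [pow_two]; exact Nat.mul_le_mul hq hq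
      simp only [pow_zero] at *
      omega
    · have : 2 ≤ q ^ a := le_trans hq (Nat.le_self_pow (by omega) q)
      omega
  refine ⟨(g : K), fun e => hne ?_⟩
  rw [iterate_frob hphi, iterate_frob hphi, ← Units.val_pow_eq_pow_val, ← Units.val_pow_eq_pow_val] at e
  exact Nat.pow_right_injective hq (pow_injOn_Iio_orderOf (hgo ▸ hlt i hi) (hgo ▸ hlt j hj) (Units.ext e))

theorem two_gen_twE6 (hq : IsPrimePow q) (hK : Fintype.card K = q ^ 2) :
    ∃ a b : ↥(twistedE6 K q), Subgroup.closure ({a, b} : Set ↥(twistedE6 K q)) = ⊤ := by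
  have hq2 : 2 ≤ q := hq.one_lt
  refine exists_two_generators_tw (hV := DataE6.valid) (G := E6.graph) (phi := E6.phi hq hK) (k := 2)
    (E6.orbits.{u}) le_rfl ?_ (frob_dist hq2 le_rfl hK (E6.phi_apply hq hK)) ?_ ?_
    (WJ := [0, 1, 2, 3]) (j₀ := 2) rfl (ops := opsE6) (W := [1, 3, 2, 4, 0, 5]) (by decide +kernel)
    okTwE6 ?_ ?_ _ (E6.twisted_eq hq hK)
  · decide +kernel
  · intro t
    rw [iterate_frob (E6.phi_apply hq hK), ← hK, FiniteField.pow_card]
  · rw [Nat.card_eq_fintype_card, hK]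
    nlinarith
  · decide +kernel
  · intro g hg
    have e : ((List.finRange 2).map fun i : Fin 2 => (Units.map ((E6.phi hq hK) : K →* K))^[(i : ℕ)] g ^
      ([(-1 : ℤ), 0].getD (i : ℕ) 0)).prod = g⁻¹ := by
        simp [List.finRange_succ]
    have key : ∀ i : Fin 2, prT DataE6.tbl (chevE6.simple 2)
        (CfsgLib.Chev.CharTwoInvol.wAct DataE6.tbl [1, 3, 2, 4, 0, 5] (chevE6.simple ([2, 4].getD (i : ℕ) 0))) =
        [(-1 : ℤ), 0].getD (i : ℕ) 0 := by decide +kernel
    intro h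
    refine (fun hne : g⁻¹ ≠ 1 => hne ?_) ?_
    · rw [← e]
      refine Eq.trans (congrArg List.prod (List.map_congr_left fun i _ => ?_)) h
      rw [← key i]
      rfl
    · rw [Ne, inv_eq_one]
      intro h1
      rw [h1, orderOf_one, Nat.card_eq_fintype_card, hK] at hg
      have : 4 ≤ q ^ 2 := by nlinarith
      omega

theorem two_gen_twD4 (hq : IsPrimePow q) (hK : Fintype.card K = q ^ 3) :
    ∃ a b : ↥(twistedD4 K q), Subgroup.closure ({a, b} : Set ↥(twistedD4 K q)) = ⊤ := by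
  have hq2 : 2 ≤ q := hq.one_lt
  have h8 : 8 ≤ q ^ 3 := le_trans (le_of_eq (by norm_num)) (Nat.pow_le_pow_left hq2 3)
  refine exists_two_generators_tw (hV := DataD4.valid) (G := D4.graph) (phi := D4.phi hq hK) (k := 3)
    (D4.orbits.{u}) (by norm_num) ?_ (frob_dist hq2 (by norm_num) hK (D4.phi_apply hq hK)) ?_ ?_
    (WJ := [0, 1]) (j₀ := 1) rfl (ops := opsD4) (W := [1, 0, 2, 3]) (by decide +kernel)
    okTwD4 ?_ ?_ _ (D4.twisted_eq hq hK)
  · decide +kernel
  · intro t
    rw [iterate_frob (D4.phi_apply hq hK), ← hK, FiniteField.pow_card]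
  · rw [Nat.card_eq_fintype_card, hK]
    omega
  · decide +kernel
  · intro g hg
    have hmap : ∀ x : Kˣ, Units.map ((D4.phi hq hK) : K →* K) x = x ^ q := fun x =>
      Units.ext (by simp [D4.phi_apply hq hK])
    have e : ((List.finRange 3).map fun i : Fin 3 => (Units.map ((D4.phi hq hK) : K →* K))^[(i : ℕ)] g ^
      ([(-1 : ℤ), 1, 1].getD (i : ℕ) 0)).prod = g⁻¹ * g ^ (q + q ^ 2) := by
        simp [List.finRange_succ, hmap, pow_add, pow_mul, sq, mul_assoc]
    have key : ∀ i : Fin 3, prT DataD4.tbl (chevD4.simple 0)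
        (CfsgLib.Chev.CharTwoInvol.wAct DataD4.tbl [1, 0, 2, 3] (chevD4.simple ([0, 2, 3].getD (i : ℕ) 0))) =
        [(-1 : ℤ), 1, 1].getD (i : ℕ) 0 := by decide +kernel
    intro h
    refine (fun hne : g⁻¹ * g ^ (q + q ^ 2) ≠ 1 => hne ?_) ?_
    · rw [← e]
      refine Eq.trans (congrArg List.prod (List.map_congr_left fun i _ => ?_)) h
      rw [← key i]
      rfl
    · intro h1
      rw [inv_mul_eq_one] at h1
      have hlt : q + q ^ 2 < orderOf g := by
        rw [hg, Nat.card_eq_fintype_card, hK]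
        have a1 : q ^ 3 = q * q * q := by ring
        have a2 : q ^ 2 = q * q := by ring
        nlinarith [Nat.sub_add_cancel (show 1 ≤ q ^ 3 by omega), Nat.mul_le_mul_right (q * q) hq2]
      have h1' : g ^ (1 : ℕ) = g ^ (q + q ^ 2) := by rw [pow_one]; exact h1
      have := pow_injOn_Iio_orderOf (show 1 ∈ Set.Iio (orderOf g) from Set.mem_Iio.2 (by omega))
        (Set.mem_Iio.2 hlt) h1'
      nlinarith

end CfsgLib.Chev.TwoGen
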