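import Cfsg.Agent.Chev.TwoGen.TwTable
import Cfsg.Agent.Chev.TwoGen.Sound
import Mathlib.LinearAlgebra.LinearIndependent.Defs
import Mathlib.FieldTheory.Galois.Basic

/-!
# Two elements generate the twisted group

The orbit element of a root is the product of the images of its root element under the endomorphism.
-/

set_option autoImplicit false

namespace CfsgLib.Chev.TwoGen

open Cfsg.Lie Matrix CfsgLib.Chev CfsgLib.Chev.CharTwoInvol CfsgLib.Chev.Twisted

universe u

/-- A product of products of commuting factors. -/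
theorem prod_map_mul_commute {H : Type*} [Monoid H] {ι : Type*} (f g : ι → H) :
    ∀ L : List ι, L.Nodup → (∀ i ∈ L, ∀ j ∈ L, i ≠ j → Commute (g i) (f j)) →
      (L.map fun i => f i * g i).prod = (L.map f).prod * (L.map g).prod := by
  intro L
  induction L with
  | nil => intros; simp
  | cons a L ih =>
    intro hnd h
    obtain ⟨ha, hnd'⟩ := List.nodup_cons.1 hnd
    rw [List.map_cons, List.prod_cons, List.map_cons, List.prod_cons, List.map_cons, List.prod_cons,
      ih hnd' fun i hi j hj => h i (List.mem_cons_of_mem _ hi) j (List.mem_cons_of_mem _ hj)]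
    have hc : Commute (g a) (L.map f).prod := Commute.list_prod_right _ _ fun x hx => by
      obtain ⟨j, hj, rfl⟩ := List.mem_map.1 hx
      exact h a (List.mem_cons_self ..) j (List.mem_cons_of_mem _ hj) fun e => ha (e ▸ hj)
    rw [mul_assoc, mul_assoc, ← mul_assoc (g a), hc.eq, mul_assoc]

/-- Conjugation by a product all whose factors but one centralise. -/
theorem conj_prod_eq {H : Type*} [Group H] {ι : Type*} [DecidableEq ι] (B : ι → H) (A z : H) (i : ι)
    (hB : B i * A * (B i)⁻¹ = A * z) :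
    ∀ L : List ι, L.Nodup → (∀ j ∈ L, j ≠ i → Commute (B j) A ∧ Commute (B j) z) →
      (L.map B).prod * A * ((L.map B).prod)⁻¹ = if i ∈ L then A * z else A := by
  intro L
  induction L with
  | nil => intros; simp
  | cons a L ih =>
    intro hnd h
    obtain ⟨ha, hnd'⟩ := List.nodup_cons.1 hnd
    rw [List.map_cons, List.prod_cons, show B a * (L.map B).prod * A * (B a * (L.map B).prod)⁻¹ =
      B a * ((L.map B).prod * A * ((L.map B).prod)⁻¹) * (B a)⁻¹ by group,
      ih hnd' fun j hj => h j (List.mem_cons_of_mem _ hj)]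
    by_cases hai : a = i
    · subst hai
      simp [ha, hB]
    · obtain ⟨h1, h2⟩ := h a (List.mem_cons_self ..) hai
      by_cases hi : i ∈ L
      · rw [if_pos hi, if_pos (List.mem_cons_of_mem _ hi), (h1.mul_right h2).eq, mul_inv_cancel_right]
      · rw [if_neg hi, if_neg (by simp [hi, Ne.symm hai]), h1.eq, mul_inv_cancel_right]

/-- An integer of absolute value one in a field. -/
theorem unitZ_cast {F : Type u} [Field F] {e : ℤ} (h : unitZ e = true) : (e : F) * e = 1 := by
  simp only [unitZ, Bool.or_eq_true, decide_eq_true_eq] at h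
  rcases h with h | h <;> subst h <;> simp

theorem orbK_getD (rho : ℕ → ℕ) : ∀ (k r i : ℕ), i < k → (orbK rho k r).getD i 0 = rho^[i] r := by
  intro k
  induction k with
  | zero => intro r i h; exact absurd h (Nat.not_lt_zero _)
  | succ k ih =>
    intro r i h
    cases i with
    | zero => rfl
    | succ i =>
      rw [orbK, List.getD_cons_succ, ih _ _ (by omega), Function.iterate_succ_apply]

theorem orbK_length (rho : ℕ → ℕ) : ∀ k r : ℕ, (orbK rho k r).length = k := by
  intro k
  induction k with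
  | zero => intro r; rfl
  | succ k ih => intro r; rw [orbK, List.length_cons, ih]

theorem mem_orbK {rho : ℕ → ℕ} {k r i : ℕ} (h : i < k) : rho^[i] r ∈ orbK rho k r := by
  rw [← orbK_getD rho k r i h, List.getD_eq_getElem _ _ ((orbK_length rho k r).symm ▸ h)]
  exact List.getElem_mem _

variable {D : ChevalleyDatum} {T : Tbl} (hV : T.Valid D) (G : Graph D) {F : Type u} [Field F]
  (phi : F →+* F)

/-- The orbit element of a root. -/
noncomputable def otw (k r : ℕ) (t : F) : GL D.Idx F :=
  ((List.range k).map fun i => (G.sigma phi)^[i] ((Tbl.Valid.toSys.{u} hV).xU r t)).prod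

/-- A root whose orbit subgroup lies in the subgroup. -/
def FullT (M : Subgroup (GL D.Idx F)) (k r : ℕ) : Prop :=
  r < T.n ∧ (G.rho r = r → ∀ a : F, G.sigma phi ((Tbl.Valid.toSys.{u} hV).xU r a) =
    (Tbl.Valid.toSys.{u} hV).xU r a → (Tbl.Valid.toSys.{u} hV).xU r a ∈ M) ∧
  (G.rho r ≠ r → ∀ t : F, otw hV G phi k r t ∈ M)

variable {hV G phi}

include hV in
theorem rho_lt_n {r : ℕ} (hr : r < T.n) : G.rho r < T.n :=
  hV.linked.nroots ▸ G.rho_lt r (lt_nroots hV hr)

include hV in
theorem rho_it_lt {r : ℕ} (hr : r < T.n) : ∀ i, G.rho^[i] r < T.n := by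
  intro i
  induction i with
  | zero => exact hr
  | succ i ih => rw [Function.iterate_succ_apply']; exact rho_lt_n (hV := hV) ih

theorem sigma_it (i : ℕ) : ∀ {r : ℕ}, r < T.n → ∀ t : F,
    (G.sigma phi)^[i] ((Tbl.Valid.toSys.{u} hV).xU r t) =
      (Tbl.Valid.toSys.{u} hV).xU (G.rho^[i] r) ((sgnK G.rho G.eps i r : F) * phi^[i] t) := by
  induction i with
  | zero => intro r _ t; simp [sgnK]
  | succ i ih =>
    intro r hr t
    rw [Function.iterate_succ_apply, G.sigma_xU (Tbl.Valid.toSys.{u} hV) phi (lt_nroots hV hr),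
      ih (rho_lt_n (hV := hV) hr), ← Function.iterate_succ_apply, iterate_map_mul,
      ← Function.iterate_succ_apply, sgnK]
    congr 1
    have e : phi^[i] ((G.eps r : F)) = (G.eps r : F) := Function.iterate_fixed (map_intCast phi _) i
    rw [e, Int.cast_mul]
    ring

theorem orbOK_spec {k r : ℕ} (h : orbOK T G.rho G.eps k r = true) :
    r < T.n ∧ G.rho r ≠ r ∧ G.rho^[k] r = r ∧ sgnK G.rho G.eps k r = 1 ∧
      ∀ i < k, ∀ j < k, i ≠ j → commB T (G.rho^[i] r) (G.rho^[j] r) = true := by
  simp only [orbOK, Bool.and_eq_true, Bool.not_eq_true', List.all_eq_true, List.mem_range,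
    Bool.or_eq_true, decide_eq_true_eq] at h
  obtain ⟨⟨⟨⟨h1, h2⟩, h3⟩, h4⟩, h5⟩ := h
  refine ⟨Nat.le_of_ble_eq_true h1, fun e => ?_, ?_, h4, fun i hi j hj hne => ?_⟩
  · rw [e, show Nat.beq r r = true from Nat.beq_refl r] at h2; exact absurd h2 (by decide)
  · have := Nat.eq_of_beq_eq_true h3
    rwa [orbK_getD _ _ _ _ (Nat.lt_succ_self k)] at this
  · rcases h5 i hi j hj with e | e
    · exact absurd (Nat.eq_of_beq_eq_true e) hne
    · rwa [orbK_getD _ _ _ _ hi, orbK_getD _ _ _ _ hj] at e

theorem sit_commute {r s i j : ℕ} (hr : r < T.n) (hs : s < T.n)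
    (h : commB T (G.rho^[i] r) (G.rho^[j] s) = true) (t u : F) :
    Commute ((G.sigma phi)^[i] ((Tbl.Valid.toSys.{u} hV).xU r t))
      ((G.sigma phi)^[j] ((Tbl.Valid.toSys.{u} hV).xU s u)) := by
  rw [sigma_it i hr, sigma_it j hs]
  exact commute_commB (hV := hV) (rho_it_lt (hV := hV) hr i) (rho_it_lt (hV := hV) hs j) h _ _

theorem otw_add {k r : ℕ} (h : orbOK T G.rho G.eps k r = true) (t u : F) :
    otw hV G phi k r t * otw hV G phi k r u = otw hV G phi k r (t + u) := by
  obtain ⟨hr, -, -, -, hc⟩ := orbOK_spec h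
  rw [otw, otw, otw, ← prod_map_mul_commute _ _ _ List.nodup_range fun i hi j hj hne =>
    sit_commute hr hr (hc i (List.mem_range.1 hi) j (List.mem_range.1 hj) hne) u t]
  congr 1
  exact List.map_congr_left fun i _ => by rw [← iterate_map_mul, Sys.xU_add]

theorem otw_zero {k r : ℕ} : otw hV G phi k r (0 : F) = 1 := by
  refine List.prod_eq_one fun x hx => ?_
  obtain ⟨i, -, rfl⟩ := List.mem_map.1 hx
  rw [Sys.xU_zero, iterate_map_one]

theorem otw_neg {k r : ℕ} (h : orbOK T G.rho G.eps k r = true) (t : F) :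
    otw hV G phi k r (-t) = (otw hV G phi k r t)⁻¹ := by
  refine eq_inv_of_mul_eq_one_left ?_
  rw [otw_add h, neg_add_cancel, otw_zero]

/-- Conjugation by a fixed element carrying a root subgroup to another. -/
theorem conj_otw {n : GL D.Idx F} (hn : G.sigma phi n = n) {k d v : ℕ} {c : F}
    (h : ∀ t : F, n * (Tbl.Valid.toSys.{u} hV).xU d t * n⁻¹ = (Tbl.Valid.toSys.{u} hV).xU v (c * t)) (t : F) :
    n * otw hV G phi k d t * n⁻¹ = otw hV G phi k v (c * t) := by
  rw [otw, otw, show n * ((List.range k).map fun i =>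
    (G.sigma phi)^[i] ((Tbl.Valid.toSys.{u} hV).xU d t)).prod * n⁻¹ =
    (MulAut.conj n).toMonoidHom _ from rfl, map_list_prod, List.map_map]
  congr 1
  refine List.map_congr_left fun i _ => ?_
  show n * (G.sigma phi)^[i] _ * n⁻¹ = _
  rw [← h t, iterate_map_mul, iterate_map_mul, iterate_map_inv, Function.iterate_fixed hn i]

/-- A product of the images of one root element whose root is fixed. -/
theorem prod_fixed_xU {v : ℕ} (hv : v < T.n) (hρ : G.rho v = v) (y : F) : ∀ L : List ℕ,
    (L.map fun i => (G.sigma phi)^[i] ((Tbl.Valid.toSys.{u} hV).xU v y)).prod =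
      (Tbl.Valid.toSys.{u} hV).xU v (L.map fun i => ((sgnK G.rho G.eps i v : ℤ) : F) * phi^[i] y).sum := by
  intro L
  induction L with
  | nil => simp
  | cons i L ih =>
    rw [List.map_cons, List.prod_cons, ih, sigma_it i hv, Function.iterate_fixed hρ i, Sys.xU_add,
      List.map_cons, List.sum_cons]

variable [Finite F] {M : Subgroup (GL D.Idx F)} {k : ℕ}

theorem exists_sum_ne {v : ℕ} (hv : v < T.n) (hρ : G.rho v = v) (hk : 0 < k)
    (hdist : ∀ i < k, ∀ j < k, i ≠ j → ∃ x : F, phi^[i] x ≠ phi^[j] x) :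
    ∃ y : F, ((List.range k).map fun i => ((sgnK G.rho G.eps i v : ℤ) : F) * phi^[i] y).sum ≠ 0 := by
  by_contra hcon
  push_neg at hcon
  let χ : Fin k → (F →* F) := fun i => (phi ^ (i : ℕ) : F →+* F).toMonoidHom
  have happ : ∀ (i : Fin k) (y : F), χ i y = phi^[(i : ℕ)] y := fun i y => by
    show (phi ^ (i : ℕ) : F →+* F) y = _
    rw [RingHom.coe_pow]
  have hinj : Function.Injective χ := fun i j e => by
    by_contra hne
    obtain ⟨x, hx⟩ := hdist i i.2 j j.2 fun h => hne (Fin.ext h)
    rw [← happ, ← happ, e] at hx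
    exact hx rfl
  have hli := (linearIndependent_monoidHom F F).comp χ hinj
  rw [Fintype.linearIndependent_iff] at hli
  have := hli (fun i => ((sgnK G.rho G.eps i v : ℤ) : F)) (funext fun y => by
    have e := hcon y
    rw [← List.sum_ofFn] at *
    simpa [Finset.sum_apply, happ, List.sum_ofFn, Finset.sum_range,
      ← List.ofFn_getElem_eq_map] using e) ⟨0, hk⟩
  simp [sgnK] at this

/-- The commutator of two orbit elements gives a fixed root subgroup. -/
theorem long_sound (hk : 0 < k) (hdist : ∀ i < k, ∀ j < k, i ≠ j → ∃ x : F, phi^[i] x ≠ phi^[j] x)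
    (hfix : ∀ g ∈ M, G.sigma phi g = g) {r s v : ℕ} (hR : orbOK T G.rho G.eps k r = true)
    (hS : orbOK T G.rho G.eps k s = true) (hL : longOK T G.rho k r s v = true)
    (hrM : ∀ t : F, otw hV G phi k r t ∈ M) (hsM : ∀ t : F, otw hV G phi k s t ∈ M) :
    FullT hV G phi M k v := by
  obtain ⟨hr, -, -, -, hrc⟩ := orbOK_spec hR
  obtain ⟨hs, -, -, -, -⟩ := orbOK_spec hS
  simp only [longOK, Bool.and_eq_true, Bool.not_eq_true', List.all_eq_true, List.mem_range,
    Bool.or_eq_true] at hL
  obtain ⟨⟨⟨⟨⟨⟨hne, hne'⟩, hv⟩, hρv⟩, hterm⟩, hcv⟩, hrs⟩ := hL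
  have hv : v < T.n := Nat.le_of_ble_eq_true hv
  have hρv : G.rho v = v := Nat.eq_of_beq_eq_true hρv
  refine ⟨hv, fun _ => ?_, fun h => absurd hρv h⟩
  -- the single commutator
  obtain ⟨e, he, hev, hM1, he1, he2⟩ : ∃ e, T.terms r s = [e] ∧ e.1 = v ∧ unitZ e.2.1 = true ∧
      e.2.2.1 = 1 ∧ e.2.2.2 = 1 := by
    revert hterm
    match T.terms r s with
    | [e] =>
      intro h
      simp only [Bool.and_eq_true] at h
      exact ⟨e, rfl, Nat.eq_of_beq_eq_true h.1.1.1, h.1.1.2, Nat.eq_of_beq_eq_true h.1.2,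
        Nat.eq_of_beq_eq_true h.2⟩
    | [] => intro h; exact absurd h Bool.false_ne_true
    | _ :: _ :: _ => intro h; exact absurd h Bool.false_ne_true
  have hvx : ∀ x ∈ orbK G.rho k r ++ orbK G.rho k s, x < T.n → ∀ t u : F,
      Commute ((Tbl.Valid.toSys.{u} hV).xU v t) ((Tbl.Valid.toSys.{u} hV).xU x u) :=
    fun x hx hxn => commute_commB (hV := hV) hv hxn (hcv x hx)
  have hbase : ∀ y : F, (Tbl.Valid.toSys.{u} hV).xU s 1 * (Tbl.Valid.toSys.{u} hV).xU r (-((e.2.1 : F) * y)) *
      ((Tbl.Valid.toSys.{u} hV).xU s 1)⁻¹ =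
      (Tbl.Valid.toSys.{u} hV).xU r (-((e.2.1 : F) * y)) * (Tbl.Valid.toSys.{u} hV).xU v y := by
    intro y
    have c := (Tbl.Valid.toSys.{u} hV).comm_wU (lt_nroots hV hr) (lt_nroots hV hs) (s := s)
      (fun k => by rw [k, show Nat.beq r r = true from Nat.beq_refl r] at hne; exact absurd hne (by decide))
      (fun k => by
        rw [neg_eq_negAt hV hr] at k
        rw [k, show Nat.beq (T.negAt r) (T.negAt r) = true from Nat.beq_refl _] at hne'
        exact absurd hne' (by decide)) (-((e.2.1 : F) * y)) (1 : F)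
    rw [ChevalleyDatum.commWord, hV.commTermsd hr hs, he, List.map_cons, List.map_nil, hev, he1, he2,
      pow_one, pow_one, mul_one, neg_neg, ← mul_assoc, unitZ_cast hM1, one_mul, Sys.wU_cons,
      show (Tbl.Valid.toSys.{u} hV).wU ([] : List (ℕ × F)) = 1 from rfl, mul_one] at c
    have hvs : Commute ((Tbl.Valid.toSys.{u} hV).xU v y) ((Tbl.Valid.toSys.{u} hV).xU s 1) :=
      hvx s (List.mem_append_right _ (mem_orbK (i := 0) hk)) hs y 1
    rw [c, mul_assoc, mul_assoc, hvs.inv_right.eq, mul_inv_cancel_left]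
  -- the commutator of the orbit elements
  have hlin : ∀ y : F, (Tbl.Valid.toSys.{u} hV).xU v
      ((List.range k).map fun i => ((sgnK G.rho G.eps i v : ℤ) : F) * phi^[i] y).sum ∈ M := by
    intro y
    set t := -((e.2.1 : F) * y) with ht
    rw [← prod_fixed_xU hv hρv y]
    set A : ℕ → GL D.Idx F := fun i => (G.sigma phi)^[i] ((Tbl.Valid.toSys.{u} hV).xU r t) with hA
    set B : ℕ → GL D.Idx F := fun i => (G.sigma phi)^[i] ((Tbl.Valid.toSys.{u} hV).xU s 1) with hB
    set Z : ℕ → GL D.Idx F := fun i => (G.sigma phi)^[i] ((Tbl.Valid.toSys.{u} hV).xU v y) with hZ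
    have hz : ∀ i x j, x < T.n → G.rho^[j] x ∈ orbK G.rho k r ++ orbK G.rho k s → ∀ w : F,
        Commute (Z i) ((G.sigma phi)^[j] ((Tbl.Valid.toSys.{u} hV).xU x w)) := by
      intro i x j hx hm w
      show Commute ((G.sigma phi)^[i] _) _
      rw [sigma_it i hv, Function.iterate_fixed hρv i, sigma_it j hx]
      exact hvx _ hm (rho_it_lt (hV := hV) hx j) _ _
    have hconj : ∀ i < k, otw hV G phi k s 1 * A i * (otw hV G phi k s 1)⁻¹ = A i * Z i := by
      intro i hi
      have hBi : B i * A i * (B i)⁻¹ = A i * Z i := by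
        simp only [hA, hB, hZ]
        rw [← iterate_map_inv, ← iterate_map_mul, ← iterate_map_mul, ht, hbase, iterate_map_mul]
      have := conj_prod_eq B (A i) (Z i) i hBi (List.range k) List.nodup_range fun j hj hne => ?_
      · rwa [if_pos (List.mem_range.2 hi)] at this
      · have hj := List.mem_range.1 hj
        refine ⟨?_, (hz i s j hs (List.mem_append_right _ (mem_orbK hj)) 1).symm⟩
        rcases hrs i hi j hj with h | h
        · exact absurd (Nat.eq_of_beq_eq_true h).symm hne
        · rw [orbK_getD _ _ _ _ hi, orbK_getD _ _ _ _ hj] at h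
          exact (sit_commute hr hs h t 1).symm
    have hprod : otw hV G phi k s 1 * otw hV G phi k r t * (otw hV G phi k s 1)⁻¹ =
        otw hV G phi k r t * ((List.range k).map Z).prod := by
      conv_lhs => arg 1; arg 2; rw [otw]
      rw [show otw hV G phi k s 1 * ((List.range k).map A).prod * (otw hV G phi k s 1)⁻¹ =
        (MulAut.conj (otw hV G phi k s 1)).toMonoidHom ((List.range k).map A).prod from rfl,
        map_list_prod, List.map_map]
      show _ = ((List.range k).map A).prod * _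
      rw [← prod_map_mul_commute A Z _ List.nodup_range fun i _ j hj _ =>
        hz i r j hr (List.mem_append_left _ (mem_orbK (List.mem_range.1 hj))) t]
      congr 1
      exact List.map_congr_left fun i hi => hconj i (List.mem_range.1 hi)
    have := mul_mem (inv_mem (hrM t)) (mul_mem (mul_mem (hsM 1) (hrM t)) (inv_mem (hsM 1)))
    rwa [hprod, inv_mul_cancel_left] at this
  intro a ha
  obtain ⟨y₀, hy₀⟩ := exists_sum_ne hv hρv hk hdist
  set b := ((List.range k).map fun i => ((sgnK G.rho G.eps i v : ℤ) : F) * phi^[i] y₀).sum with hb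
  have key : ∀ x : F, G.sigma phi ((Tbl.Valid.toSys.{u} hV).xU v x) = (Tbl.Valid.toSys.{u} hV).xU v x →
      (G.eps v : F) * phi x = x := fun x hx => by
    rw [G.sigma_xU (Tbl.Valid.toSys.{u} hV) phi (lt_nroots hV hv), hρv] at hx
    exact (Tbl.Valid.toSys.{u} hV).coef_eq (lt_nroots hV hv) hx
  have hb' := key b (hfix _ (hlin y₀))
  have hlam : phi (a / b) = a / b := by
    have h1 : (G.eps v : F) ≠ 0 := by
      rcases G.eps_unit v (lt_nroots hV hv) with h | h <;> simp [h]
    rw [map_div₀, ← mul_div_mul_left (phi a) (phi b) h1, key a ha, hb']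
  have e : ((List.range k).map fun i => ((sgnK G.rho G.eps i v : ℤ) : F) * phi^[i] (a / b * y₀)).sum =
      a / b * b := by
    rw [hb, ← List.sum_map_mul_left]
    congr 1
    refine List.map_congr_left fun i _ => ?_
    rw [iterate_map_mul, Function.iterate_fixed hlam i]
    ring
  have := hlin (a / b * y₀)
  rwa [e, div_mul_cancel₀ _ hy₀] at this

/-- One derivation is sound. -/
theorem twGenStep_sound {W : List ℕ} (hW : ∀ q ∈ W, q < T.l) (hk : 0 < k)
    (hdist : ∀ i < k, ∀ j < k, i ≠ j → ∃ x : F, phi^[i] x ≠ phi^[j] x)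
    (hfix : ∀ g ∈ M, G.sigma phi g = g) (hn : (Tbl.Valid.toSys.{u} hV).nw F W ∈ M)
    {op : TwGenOp} {K : List ℕ} (hK : ∀ r ∈ K, FullT hV G phi M k r) {v : ℕ}
    (h : twGenStep T G.rho G.eps k W K op = some v) : FullT hV G phi M k v := by
  have get : ∀ {x}, memB K x = true → FullT hV G phi M k x := fun {x} hx => by
    obtain ⟨y, hy, e⟩ := List.any_eq_true.1 hx
    rw [Nat.eq_of_beq_eq_true e]
    exact hK y hy
  cases op with
  | conj d =>
    simp only [twGenStep] at h
    cases hc : (memB K d && (Nat.beq (G.rho (wAct T W d)) (wAct T W d) == Nat.beq (G.rho d) d)) <;>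
      rw [hc] at h
    · simp at h
    simp only [cond_true, Option.some.injEq] at h
    subst h
    simp only [Bool.and_eq_true, beq_iff_eq] at hc
    obtain ⟨hd, h1, h2⟩ := get hc.1
    obtain ⟨c, hc'⟩ := nw_conj (F := F) (hV := hV) hW hd
    have hiff : G.rho (wAct T W d) = wAct T W d ↔ G.rho d = d := by
      constructor <;> intro e <;> apply Nat.eq_of_beq_eq_true
      · rw [← hc.2, e]; exact Nat.beq_refl _
      · rw [hc.2, e]; exact Nat.beq_refl _
    have hσn := hfix _ hn
    set n := (Tbl.Valid.toSys.{u} hV).nw F W with hndef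
    refine ⟨wAct_lt hV hW hd, fun e a ha => ?_, fun e t => ?_⟩
    · have hd' : n * (Tbl.Valid.toSys.{u} hV).xU d ((c : F)⁻¹ * a) * n⁻¹ =
          (Tbl.Valid.toSys.{u} hV).xU (wAct T W d) a := by
        rw [hc', mul_inv_cancel_left₀ c.ne_zero]
      have hfd : G.sigma phi ((Tbl.Valid.toSys.{u} hV).xU d ((c : F)⁻¹ * a)) =
          (Tbl.Valid.toSys.{u} hV).xU d ((c : F)⁻¹ * a) := by
        rw [← hd', map_mul, map_mul, map_inv, hσn] at ha
        exact mul_left_cancel (mul_right_cancel ha)
      exact hd' ▸ mul_mem (mul_mem hn (h1 (hiff.1 e) _ hfd)) (inv_mem hn)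
    · have := mul_mem (mul_mem hn (h2 (fun k => e (hiff.2 k)) ((c : F)⁻¹ * t))) (inv_mem hn)
      rwa [conj_otw hσn hc', mul_inv_cancel_left₀ c.ne_zero] at this
  | rot d =>
    simp only [twGenStep] at h
    cases hc : (memB K d && orbOK T G.rho G.eps k d && !Nat.beq (G.rho (G.rho d)) (G.rho d)) <;> rw [hc] at h
    · simp at h
    simp only [cond_true, Option.some.injEq] at h
    subst h
    simp only [Bool.and_eq_true, Bool.not_eq_true'] at hc
    obtain ⟨hd, hne, -⟩ := orbOK_spec hc.1.2
    refine ⟨rho_lt_n (hV := hV) hd, fun e => absurd hc.2 (by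
        rw [e, show Nat.beq (G.rho d) (G.rho d) = true from Nat.beq_refl _]; decide),
      fun _ t => ?_⟩
    have h1 : (G.eps d : F) ≠ 0 := by
      rcases G.eps_unit d (lt_nroots hV hd) with h | h <;> simp [h]
    obtain ⟨t', ht'⟩ := (Finite.injective_iff_surjective.1 phi.injective) ((G.eps d : F)⁻¹ * t)
    have hm := (get hc.1.1).2.2 hne t'
    have e := hfix _ hm
    rw [otw, map_list_prod, List.map_map] at e
    rw [otw, ← e] at hm
    rw [otw]
    refine (congrArg (· ∈ M) (congrArg List.prod ?_)).mpr hm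
    refine List.map_congr_left fun i _ => ?_
    show _ = G.sigma phi ((G.sigma phi)^[i] _)
    rw [← Function.iterate_succ_apply' (G.sigma phi) i, Function.iterate_succ_apply,
      G.sigma_xU (Tbl.Valid.toSys.{u} hV) phi (lt_nroots hV hd), ht', mul_inv_cancel_left₀ h1]
  | long r s =>
    simp only [twGenStep] at h
    cases hc : (memB K r && memB K s && orbOK T G.rho G.eps k r && orbOK T G.rho G.eps k s &&
        longOK T G.rho k r s ((T.terms r s).headD (0, 0, 0, 0)).1) <;> rw [hc] at h
    · simp at h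
    simp only [cond_true, Option.some.injEq] at h
    subst h
    simp only [Bool.and_eq_true] at hc
    exact long_sound hk hdist hfix hc.1.1.2 hc.1.2 hc.2
      ((get hc.1.1.1.1).2.2 (orbOK_spec hc.1.1.2).2.1) ((get hc.1.1.1.2).2.2 (orbOK_spec hc.1.2).2.1)

theorem twGenRun_sound {W : List ℕ} (hW : ∀ q ∈ W, q < T.l) (hk : 0 < k)
    (hdist : ∀ i < k, ∀ j < k, i ≠ j → ∃ x : F, phi^[i] x ≠ phi^[j] x)
    (hfix : ∀ g ∈ M, G.sigma phi g = g) (hn : (Tbl.Valid.toSys.{u} hV).nw F W ∈ M) :
    ∀ (ops : List TwGenOp) (K K' : List ℕ), (∀ r ∈ K, FullT hV G phi M k r) →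
      twGenRun T G.rho G.eps k W ops K = some K' → ∀ r ∈ K', FullT hV G phi M k r := by
  intro ops
  induction ops with
  | nil =>
    intro K K' hK h
    rw [twGenRun, Option.some.injEq] at h
    exact h ▸ hK
  | cons op ops ih =>
    intro K K' hK h
    rw [twGenRun] at h
    cases hs : twGenStep T G.rho G.eps k W K op with
    | none => simp [hs] at h
    | some v =>
      simp only [hs] at h
      refine ih (v :: K) K' ?_ h
      intro r hr
      rcases List.mem_cons.1 hr with rfl | hr
      · exact twGenStep_sound hW hk hdist hfix hn hK hs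
      · exact hK r hr

omit [Finite F] in
/-- Conjugation of a root element by a product of torus elements. -/
theorem torList_conj {r : ℕ} (hr : r < T.n) : ∀ (L : List (ℕ × Fˣ)), (∀ p ∈ L, p.1 < T.n) → ∀ t : F,
    (L.map fun p => (Tbl.Valid.toSys.{u} hV).dg (hz D p.1 p.2)).prod * (Tbl.Valid.toSys.{u} hV).xU r t *
      ((L.map fun p => (Tbl.Valid.toSys.{u} hV).dg (hz D p.1 p.2)).prod)⁻¹ =
      (Tbl.Valid.toSys.{u} hV).xU r (((L.map fun p => p.2 ^ prT T r p.1).prod : Fˣ) * t) := by
  intro L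
  induction L with
  | nil => intro _ t; simp
  | cons p L ih =>
    intro hL t
    rw [List.map_cons, List.prod_cons, show ∀ a b x : GL D.Idx F, a * b * x * (a * b)⁻¹ =
      a * (b * x * b⁻¹) * a⁻¹ from fun a b x => by group, ih (fun q hq => hL q (List.mem_cons_of_mem _ hq)),
      Sys.dg_conj_xU _ _ (lt_nroots hV hr), Sys.chi_hz _ _ _ (lt_nroots hV hr),
      ← prT_eq hV hr (hL p (List.mem_cons_self ..)), List.map_cons, List.prod_cons, Units.val_mul,
      mul_assoc]

omit [Finite F] in
theorem torList_nw {W : List ℕ} (hW : ∀ q ∈ W, q < T.l) : ∀ L : List (ℕ × Fˣ), (∀ p ∈ L, p.1 < T.n) →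
    (Tbl.Valid.toSys.{u} hV).nw F W * (L.map fun p => (Tbl.Valid.toSys.{u} hV).dg (hz D p.1 p.2)).prod *
      ((Tbl.Valid.toSys.{u} hV).nw F W)⁻¹ =
      ((L.map fun p => (wAct T W p.1, p.2)).map fun p => (Tbl.Valid.toSys.{u} hV).dg (hz D p.1 p.2)).prod := by
  intro L
  induction L with
  | nil => intro _; simp
  | cons p L ih =>
    intro hL
    rw [List.map_cons, List.prod_cons, List.map_cons, List.map_cons, List.prod_cons,
      show ∀ a b n : GL D.Idx F, n * (a * b) * n⁻¹ = (n * a * n⁻¹) * (n * b * n⁻¹) from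
        fun a b n => by group,
      ih fun q hq => hL q (List.mem_cons_of_mem _ hq),
      (Tbl.Valid.toSys.{u} hV).nw_conj_hz (fun q hq => lt_rank hV (hW q hq))
        ⟨p.1, lt_nroots hV (hL p (List.mem_cons_self ..))⟩,
      Twisted.pw_eq W (fun q hq => lt_rank hV (hW q hq))]
    rfl

omit [Finite F] in
theorem torList_commute (L L' : List (ℕ × Fˣ)) :
    Commute (L.map fun p => (Tbl.Valid.toSys.{u} hV).dg (hz D p.1 p.2)).prod
      (L'.map fun p => (Tbl.Valid.toSys.{u} hV).dg (hz D p.1 p.2)).prod := by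
  refine Commute.list_prod_left _ _ fun x hx => Commute.list_prod_right _ _ fun y hy => ?_
  obtain ⟨p, -, rfl⟩ := List.mem_map.1 hx
  obtain ⟨p', -, rfl⟩ := List.mem_map.1 hy
  show _ = _
  rw [← Sys.dg_mul, ← Sys.dg_mul, mul_comm]

omit [Finite F] in
theorem rot_iterate {k : ℕ} (hk : 0 < k) : ∀ i (h : i < k), (rotE k)^[i] ⟨0, hk⟩ = ⟨i, h⟩ := by
  intro i
  induction i with
  | zero => intro h; rfl
  | succ i ih =>
    intro h
    rw [Function.iterate_succ_apply', ih (Nat.lt_of_succ_lt h)]
    exact Fin.ext (by rw [rotE_val, if_pos (show i + 1 < k from h)])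

variable {m : ℕ} (O : Orbits (Tbl.Valid.toSys.{u} hV) G m)

omit [Finite F] in
theorem xh_eq_otw (j : Fin m) (s : Bool) {c : Fin (O.size j) → F} (hc : O.Tw phi j c) :
    O.xh j s c = otw hV G phi (O.size j) (O.rt j s ⟨0, O.size_pos j⟩) (c ⟨0, O.size_pos j⟩) := by
  have key : ∀ i (h : i < O.size j), (G.sigma phi)^[i]
      ((Tbl.Valid.toSys.{u} hV).xU (O.rt j s ⟨0, O.size_pos j⟩) (c ⟨0, O.size_pos j⟩)) =
      (Tbl.Valid.toSys.{u} hV).xU (O.rt j s ⟨i, h⟩) (c ⟨i, h⟩) := by
    intro i
    induction i with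
    | zero => intro h; rfl
    | succ i ih =>
      intro h
      have e : rotE (O.size j) ⟨i, Nat.lt_of_succ_lt h⟩ = ⟨i + 1, h⟩ :=
        Fin.ext (by rw [rotE_val, if_pos (show i + 1 < O.size j from h)])
      rw [Function.iterate_succ_apply', ih (Nat.lt_of_succ_lt h),
        G.sigma_xU (Tbl.Valid.toSys.{u} hV) phi (O.rt_lt j s _), O.rho_rt, O.eps_rt, Int.cast_one,
        one_mul, ← hc, e]
  rw [O.xh_prod, otw]
  rw [← List.map_coe_finRange_eq_range, List.map_map]
  congr 1
  exact List.map_congr_left fun i _ => (key i i.2).symm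

omit [Finite F] in
theorem xh_eq_otw' (j : Fin m) (s : Bool) {k' : ℕ} (hs : O.size j = k') {c : Fin (O.size j) → F}
    (hc : O.Tw phi j c) :
    O.xh j s c = otw hV G phi k' (O.rt j s ⟨0, O.size_pos j⟩) (c ⟨0, O.size_pos j⟩) := by
  subst hs
  exact xh_eq_otw O j s hc

/-- Two elements generate the twisted group. -/
theorem exists_two_generators_tw (hk : 2 ≤ k) (hsize : ∀ j, O.size j = 1 ∨ O.size j = k)
    (hdist : ∀ i < k, ∀ j < k, i ≠ j → ∃ x : F, phi^[i] x ≠ phi^[j] x)
    (hphik : ∀ t : F, phi^[k] t = t) (h4 : 4 ≤ Nat.card F) {WJ : List (Fin m)} {j₀ : Fin m}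
    (hj₀ : O.size j₀ = k) {ops : List TwGenOp} {W : List ℕ}
    (hW : W = WJ.flatMap fun j => List.ofFn (O.mem j))
    (hok : twGenOK T G.rho G.eps k W (D.simple (O.mem j₀ ⟨0, O.size_pos j₀⟩)) ops = true)
    (hp : ∀ i : Fin (O.size j₀), prT T (D.simple (O.mem j₀ ⟨0, O.size_pos j₀⟩)) (D.simple (O.mem j₀ i)) =
      if (i : ℕ) = 0 then 2 else 0)
    (hE : ∀ g : Fˣ, orderOf g = Nat.card F - 1 → ((List.finRange (O.size j₀)).map fun (i : Fin (O.size j₀)) =>
      (Units.map (phi : F →* F))^[(i : ℕ)] g ^ prT T (D.simple (O.mem j₀ ⟨0, O.size_pos j₀⟩))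
        (wAct T W (D.simple (O.mem j₀ i)))).prod ≠ 1)
    (G1 : Subgroup (GL D.Idx F)) (hG : G1 = O.tgroup phi) :
    ∃ a b : ↥G1, Subgroup.closure ({a, b} : Set ↥G1) = ⊤ := by
  classical
  haveI : Fintype F := Fintype.ofFinite F
  subst hG
  simp only [twGenOK, Bool.and_eq_true, List.all_eq_true] at hok
  obtain ⟨⟨hW', hα⟩, hrun⟩ := hok
  have hWl : ∀ q ∈ W, q < T.l := fun q hq => Nat.le_of_ble_eq_true (hW' q hq)
  set α := D.simple (O.mem j₀ ⟨0, O.size_pos j₀⟩) with hαdef
  obtain ⟨hαn, hαne, -, -, -⟩ := orbOK_spec hα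
  set n := (Tbl.Valid.toSys.{u} hV).nw F W with hndef
  have hnT : n ∈ O.tgroup phi := by
    rw [hndef, hW]
    clear hrun hE hW hndef
    induction WJ with
    | nil => exact one_mem _
    | cons j L ih =>
      rw [List.flatMap_cons, Sys.nw_append, ← O.nJ_eq_nw]
      exact mul_mem (O.nJ_mem phi j) ih
  have hfixT : ∀ g ∈ O.tgroup phi, G.sigma phi g = g := fun g hg => O.tgroup_le_fixed phi hg
  obtain ⟨g, hg⟩ := IsCyclic.exists_generator (α := Fˣ)
  have hgo : orderOf g = Nat.card F - 1 := by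
    rw [orderOf_eq_card_of_forall_mem_zpowers hg, Nat.card_units]
  -- the torus element
  set u : Fin (O.size j₀) → Fˣ := fun i => (Units.map (phi : F →* F))^[(i : ℕ)] g with hu
  have hgk : (Units.map (phi : F →* F))^[O.size j₀] g = g := by
    apply Units.ext
    have : ∀ i, (((Units.map (phi : F →* F))^[i] g : Fˣ) : F) = phi^[i] (g : F) := by
      intro i
      induction i with
      | zero => rfl
      | succ i ih => rw [Function.iterate_succ_apply', Function.iterate_succ_apply', Units.coe_map, ← ih]; rfl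
    rw [this, hj₀, hphik]
  have hTw : O.TwU phi j₀ u := fun i => Orbits.tw_of_iterate hgk i
  set a := (Tbl.Valid.toSys.{u} hV).theta (O.ext0 j₀ u) with hadef
  have haT : a ∈ O.tgroup phi := O.theta_mem phi (O.ext0_mem_tfix phi hTw)
  set La : List (ℕ × Fˣ) := (List.finRange (O.size j₀)).map fun i => (D.simple (O.mem j₀ i), u i) with hLa
  have hLan : ∀ p ∈ La, p.1 < T.n := fun p hp => by
    obtain ⟨i, -, rfl⟩ := List.mem_map.1 hp
    exact hV.linked.nroots ▸ (Tbl.Valid.toSys.{u} hV).simple_lt (O.mem_lt j₀ i)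
  have ha : a = (La.map fun p => (Tbl.Valid.toSys.{u} hV).dg (hz D p.1 p.2)).prod := by
    have e : O.ext0 j₀ u = ((List.finRange (O.size j₀)).map fun i =>
        (Pi.mulSingle (O.memF j₀ i) (u i) : Fin D.rank → Fˣ)).prod := by
      rw [← List.ofFn_eq_map, List.prod_ofFn]
      funext q
      rw [Finset.prod_apply]
      by_cases h : ∃ i, O.memF j₀ i = q
      · obtain ⟨i, rfl⟩ := h
        rw [O.ext0_mem, Finset.prod_eq_single_of_mem i (Finset.mem_univ _)]
        · rw [Pi.mulSingle_eq_same]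
        · intro k _ hk
          exact Pi.mulSingle_eq_of_ne (fun e => hk (O.memF_injective j₀ e.symm)) _
      · rw [Orbits.ext0, Function.extend_apply' _ _ _ h, Finset.prod_eq_one]
        · rfl
        · intro k _; exact Pi.mulSingle_eq_of_ne (fun e => h ⟨k, e.symm⟩) _
    rw [hadef, e, map_list_prod, hLa, List.map_map, List.map_map]
    congr 1
    refine List.map_congr_left fun i _ => ?_
    show (Tbl.Valid.toSys.{u} hV).theta _ = _
    rw [Sys.theta_single]
    rfl
  set La' : List (ℕ × Fˣ) := La.map fun p => (wAct T W p.1, p.2) with hLa'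
  have hLan' : ∀ p ∈ La', p.1 < T.n := fun p hp => by
    obtain ⟨q, hq, rfl⟩ := List.mem_map.1 hp
    exact wAct_lt hV hWl (hLan q hq)
  have hna : n * a * n⁻¹ = (La'.map fun p => (Tbl.Valid.toSys.{u} hV).dg (hz D p.1 p.2)).prod := by
    rw [ha]
    exact torList_nw hWl La hLan
  set a' := n * a * n⁻¹ with ha'def
  set χ : Fˣ := (La.map fun p => p.2 ^ prT T α p.1).prod with hχdef
  set χ' : Fˣ := (La'.map fun p => p.2 ^ prT T α p.1).prod with hχ'def
  have hχ : χ = g ^ (2 : ℤ) := by
    rw [hχdef, hLa, List.map_map, ← List.ofFn_eq_map, List.prod_ofFn,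
      Finset.prod_eq_single_of_mem (⟨0, O.size_pos j₀⟩ : Fin (O.size j₀)) (Finset.mem_univ _)]
    · simp [Function.comp_apply, hp, hu]
    · intro i _ hi
      have : (i : ℕ) ≠ 0 := fun e => hi (Fin.ext e)
      simp [Function.comp_apply, hp, this]
  have hχ'1 : χ' ≠ 1 := by
    rw [hχ'def, hLa', hLa, List.map_map, List.map_map]
    exact hE g hgo
  have hq : 4 ≤ Nat.card F := h4
  obtain ⟨hχ1, hχo⟩ := zpow_small hgo hq (e := 2) (by decide)
  rw [← hχ] at hχ1 hχo
  have ha'T : a' ∈ O.tgroup phi := mul_mem (mul_mem hnT haT) (inv_mem hnT)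
  have hconja : ∀ t : F, a * otw hV G phi k α t * a⁻¹ = otw hV G phi k α ((χ : F) * t) :=
    conj_otw (hfixT a haT) fun t => by rw [ha]; exact torList_conj hαn La hLan t
  have hconja' : ∀ t : F, a' * otw hV G phi k α t * a'⁻¹ = otw hV G phi k α ((χ' : F) * t) :=
    conj_otw (hfixT a' ha'T) fun t => by rw [hna]; exact torList_conj hαn La' hLan' t
  set X := otw hV G phi k α (1 : F) with hX
  have hXT : X ∈ O.tgroup phi := by
    have e := xh_eq_otw' (phi := phi) O j₀ true hj₀ (O.tw_one phi j₀)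
    exact hX ▸ e ▸ O.xh_mem phi j₀ true (O.tw_one phi j₀)
  set M := Subgroup.closure ({a, X * n} : Set (GL D.Idx F)) with hMdef
  have hMT : M ≤ O.tgroup phi := by
    rw [hMdef, Subgroup.closure_le]
    rintro y (rfl | rfl)
    · exact haT
    · exact mul_mem hXT hnT
  have haM : a ∈ M := Subgroup.subset_closure (by simp)
  have hbM : X * n ∈ M := Subgroup.subset_closure (by simp)
  -- the commutator
  set s := (1 : F) - χ' with hs
  have hy : X * n * a * (X * n)⁻¹ = otw hV G phi k α s * a' := by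
    rw [show X * n * a * (X * n)⁻¹ = X * (n * a * n⁻¹) * X⁻¹ by group, ← ha'def, hX, ← otw_neg hα,
      mul_assoc, show a' * otw hV G phi k α (-1 : F) = otw hV G phi k α ((χ' : F) * -1) * a' by
        rw [← hconja', inv_mul_cancel_right],
      ← mul_assoc, otw_add hα, hs, mul_neg_one, sub_eq_add_neg]
  have hcomm : Commute a a' := by
    rw [hna, ha]; exact torList_commute (hV := hV) La La'
  have hc0 : otw hV G phi k α ((χ : F) * s - s) ∈ M := by
    have h := mul_mem (mul_mem (mul_mem haM (mul_mem (mul_mem hbM haM) (inv_mem hbM))) (inv_mem haM))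
      (inv_mem (mul_mem (mul_mem hbM haM) (inv_mem hbM)))
    rw [hy, show ∀ p q w : GL D.Idx F, p * (q * w) * p⁻¹ * (q * w)⁻¹ =
      (p * q * p⁻¹) * (p * w * p⁻¹ * w⁻¹) * q⁻¹ from fun p q w => by group, hcomm.eq, mul_inv_cancel_right,
      mul_inv_cancel, mul_one, hconja, ← otw_neg hα, otw_add hα, ← sub_eq_add_neg] at h
    exact h
  let A : AddSubgroup F :=
    { carrier := {s | otw hV G phi k α s ∈ M}
      add_mem' := fun {p q} hp hq => by
        show _ ∈ M
        rw [← otw_add hα]; exact mul_mem hp hq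
      zero_mem' := by show _ ∈ M; rw [otw_zero]; exact one_mem _
      neg_mem' := fun {p} hp => by show _ ∈ M; rw [otw_neg hα]; exact inv_mem hp }
  have hχ'F : (χ' : F) ≠ 1 := fun e => hχ'1 (Units.ext e)
  have hA : A = ⊤ := addSubgroup_eq_top (A := A) hc0
    (by rw [← sub_one_mul]; exact mul_ne_zero (sub_ne_zero.2 hχ1) (sub_ne_zero.2 hχ'F.symm))
    (Units.ne_zero χ) (fun t ht => by
      show _ ∈ M
      rw [← hconja]
      exact mul_mem (mul_mem haM ht) (inv_mem haM)) hχo
  have hall : ∀ t : F, otw hV G phi k α t ∈ M := fun t => (hA ▸ AddSubgroup.mem_top t : t ∈ A)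
  have hnM : n ∈ M := by
    have := mul_mem (inv_mem (hall 1)) hbM
    rwa [← hX, inv_mul_cancel_left] at this
  cases hK : twGenRun T G.rho G.eps k W ops [α] with
  | none => simp [hK] at hrun
  | some K' =>
    simp only [hK, List.all_eq_true, List.mem_range, Bool.and_eq_true] at hrun
    have hK0 : ∀ r ∈ [α], FullT hV G phi M k r := fun r hr => by
      rw [List.mem_singleton] at hr
      exact hr ▸ ⟨hαn, fun e => absurd e hαne, fun _ => hall⟩
    have hK' := twGenRun_sound hWl (by omega) hdist (fun y hy => hfixT y (hMT hy)) hnM ops _ K' hK0 hK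
    have hrt : ∀ j s, FullT hV G phi M k (O.rt j s ⟨0, O.size_pos j⟩) := by
      intro j s
      set q := O.mem j ⟨0, O.size_pos j⟩ with hq
      have hql : q < T.l := hV.linked.rank ▸ O.mem_lt j _
      obtain ⟨y, hy, e⟩ : ∃ y ∈ K', O.rt j s ⟨0, O.size_pos j⟩ = y := by
        have e1 := List.any_eq_true.1 (hrun q hql).1
        have e2 := List.any_eq_true.1 (hrun q hql).2
        cases s
        · obtain ⟨y, hy, e⟩ := e2
          refine ⟨y, hy, ?_⟩
          rw [← Nat.eq_of_beq_eq_true e]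
          show D.neg (D.simple q) = _
          rw [neg_eq_negAt hV (hV.linked.nroots ▸ (Tbl.Valid.toSys.{u} hV).simple_lt (O.mem_lt j _)),
            simple_eq hV q]
        · obtain ⟨y, hy, e⟩ := e1
          refine ⟨y, hy, ?_⟩
          rw [← Nat.eq_of_beq_eq_true e]
          exact simple_eq hV q
      exact e ▸ hK' y hy
    have hle : O.tgroup phi ≤ M := by
      rw [Orbits.tgroup, Subgroup.closure_le]
      rintro y ⟨j, s, c, hc, rfl⟩
      obtain ⟨hn', hl, hsh⟩ := hrt j s
      have hrot := O.rho_rt j s ⟨0, O.size_pos j⟩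
      rcases hsize j with h1 | h1
      · have hfx := O.sigma_xh_fixed phi j s hc
        rw [xh_eq_otw' O j s h1 hc] at hfx ⊢
        simp only [otw, List.range_one, List.map_singleton, List.prod_singleton,
          Function.iterate_zero_apply] at hfx ⊢
        refine hl ?_ _ hfx
        rw [hrot]
        congr 1
        exact Fin.ext (by rw [rotE_val, if_neg (by show ¬ 0 + 1 < _; omega)])
      · rw [xh_eq_otw' O j s h1 hc]
        refine hsh (fun e => ?_) _
        rw [hrot] at e
        have hinj : D.simple (O.mem j (rotE _ ⟨0, O.size_pos j⟩)) = D.simple (O.mem j ⟨0, O.size_pos j⟩) := by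
          cases s
          · have e' := congrArg D.neg e
            simp only [Orbits.rt, Bool.false_eq_true, if_false] at e'
            rwa [(Tbl.Valid.toSys.{u} hV).neg_neg ((Tbl.Valid.toSys.{u} hV).simple_lt (O.mem_lt j _)),
              (Tbl.Valid.toSys.{u} hV).neg_neg ((Tbl.Valid.toSys.{u} hV).simple_lt (O.mem_lt j _))] at e'
          · exact e
        have h0 := O.mem_inj j _ _ ((Tbl.Valid.toSys.{u} hV).simple_inj (O.mem_lt j _) (O.mem_lt j _) hinj)
        have h00 := congrArg Fin.val h0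
        rw [rotE_val, if_pos (show 0 + 1 < O.size j by omega)] at h00
        exact absurd h00 (by simp)
    refine ⟨⟨a, haT⟩, ⟨X * n, mul_mem hXT hnT⟩, ?_⟩
    apply Subgroup.map_injective (O.tgroup phi).subtype_injective
    rw [MonoidHom.map_closure, ← MonoidHom.range_eq_map, Subgroup.range_subtype, Set.image_pair]
    exact le_antisymm hMT hle

end CfsgLib.Chev.TwoGen
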