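import Cfsg.Agent.Chev.TwoGen.Table

/-!
# Generation by two elements: derivations of orbit subgroups on the tables
-/

set_option autoImplicit false

namespace CfsgLib.Chev.TwoGen

open CfsgLib.Chev CfsgLib.Chev.CharTwoInvol

/-- A derivation of one orbit subgroup from those already present. -/
inductive TwGenOp where
  | conj (d : ℕ)
  | rot (d : ℕ)
  | long (r s : ℕ)

/-- The orbit of a root under a symmetry of order `k`. -/
def orbK (rho : ℕ → ℕ) : ℕ → ℕ → List ℕ
  | 0, _ => []
  | k + 1, r => r :: orbK rho k (rho r)

/-- The product of the signs along an orbit. -/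
def sgnK (rho : ℕ → ℕ) (eps : ℕ → ℤ) : ℕ → ℕ → ℤ
  | 0, _ => 1
  | k + 1, r => eps r * sgnK rho eps k (rho r)

/-- An orbit of `k` commuting roots with trivial sign. -/
noncomputable def orbOK (T : Tbl) (rho : ℕ → ℕ) (eps : ℕ → ℤ) (k r : ℕ) : Bool :=
  let L := orbK rho k r
  Nat.blt r T.n && !Nat.beq (rho r) r && Nat.beq ((orbK rho (k + 1) r).getD k 0) r &&
    decide (sgnK rho eps k r = 1) &&
    (List.range k).all fun i => (List.range k).all fun j =>
      Nat.beq i j || commB T (L.getD i 0) (L.getD j 0)

/-- The orbits of two roots have one fixed root as commutator. -/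
noncomputable def longOK (T : Tbl) (rho : ℕ → ℕ) (k r s v : ℕ) : Bool :=
  let R := orbK rho k r
  let S := orbK rho k s
  !Nat.beq s r && !Nat.beq s (T.negAt r) && Nat.blt v T.n && Nat.beq (rho v) v &&
    (match T.terms r s with
      | [e] => Nat.beq e.1 v && unitZ e.2.1 && Nat.beq e.2.2.1 1 && Nat.beq e.2.2.2 1
      | _ => false) &&
    (R ++ S).all (fun x => commB T v x) &&
    (List.range k).all fun i => (List.range k).all fun j =>
      Nat.beq i j || commB T (R.getD i 0) (S.getD j 0)

/-- One derivation. -/
noncomputable def twGenStep (T : Tbl) (rho : ℕ → ℕ) (eps : ℕ → ℤ) (k : ℕ) (W : List ℕ) (K : List ℕ) :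
    TwGenOp → Option ℕ
  | .conj d =>
    let v := wAct T W d
    cond (memB K d && (Nat.beq (rho v) v == Nat.beq (rho d) d)) (some v) none
  | .rot d => cond (memB K d && orbOK T rho eps k d && !Nat.beq (rho (rho d)) (rho d)) (some (rho d)) none
  | .long r s =>
    let v := ((T.terms r s).headD (0, 0, 0, 0)).1
    cond (memB K r && memB K s && orbOK T rho eps k r && orbOK T rho eps k s && longOK T rho k r s v)
      (some v) none

/-- All derivations in turn. -/
noncomputable def twGenRun (T : Tbl) (rho : ℕ → ℕ) (eps : ℕ → ℤ) (k : ℕ) (W : List ℕ) :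
    List TwGenOp → List ℕ → Option (List ℕ)
  | [], K => some K
  | op :: ops, K =>
    match twGenStep T rho eps k W K op with
    | none => none
    | some v => twGenRun T rho eps k W ops (v :: K)

/-- The check: all fundamental roots and their negatives are reached from `alpha`. -/
noncomputable def twGenOK (T : Tbl) (rho : ℕ → ℕ) (eps : ℕ → ℤ) (k : ℕ) (W : List ℕ) (alpha : ℕ)
    (ops : List TwGenOp) : Bool :=
  W.all (fun q => Nat.blt q T.l) && orbOK T rho eps k alpha &&
  match twGenRun T rho eps k W ops [alpha] with
  | none => false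
  | some K => (List.range T.l).all fun q => memB K (T.simpleAt q) && memB K (T.negAt (T.simpleAt q))

end CfsgLib.Chev.TwoGen
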